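import Mathlib
import Cfsg.Prelude.Def_SolvableStructure
import Cfsg.Agent.Lib.H11.Supersolvable3
import Cfsg.Agent.Lib.H1.Hall

set_option autoImplicit false

/-!
Abelian groups are supersolvable (hence CLT); `G × A` for solvable `G` and suitable abelian `A` is CLT.
-/

namespace H11.AbelianCLT

open Subgroup H11.Supersolvable H11.Supersolvable2 H11.Supersolvable3 H11.CyclicNormal

universe u v

theorem supersolvable_of_comm {A : Type u} [CommGroup A] [Finite A] : Cfsg.IsSupersolvable A := by
  induction hn : Nat.card A using Nat.strong_induction_on generalizing A with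
  | _ n ih =>
    rcases subsingleton_or_nontrivial A with hs | hs
    · exact of_subsingleton
    · obtain ⟨x, hx⟩ := exists_ne (1 : A)
      have hne : zpowers x ≠ ⊥ := by rw [Ne, zpowers_eq_bot]; exact hx
      exact of_quotient_cyclic (zpowers x) (ih _ (hn ▸ card_quotient_lt _ hne) rfl)

theorem prod_hasSubgroupOfEveryOrder {G : Type u} {A : Type v} [Group G] [CommGroup A] [Finite G]
    [Finite A] (hs : Group.IsSolvable G)
    (hexp : ∀ p : ℕ, p.Prime → p ∣ Nat.card G →
      (Nat.card A).factorization p + 1 = (Nat.card G).factorization p) :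
    Cfsg.HasSubgroupOfEveryOrder (G × A) := by
  intro d hd
  rw [Nat.card_prod] at hd
  have hG0 : Nat.card G ≠ 0 := Nat.card_pos.ne'
  have hA0 : Nat.card A ≠ 0 := Nat.card_pos.ne'
  have hd0 : d ≠ 0 := by
    rintro rfl
    rw [zero_dvd_iff] at hd
    exact (mul_ne_zero hG0 hA0) hd
  let f := (Nat.card G).factorization.filter (fun p => (Nat.card G).factorization p ≤ d.factorization p)
  let f' := (Nat.card G).factorization.filter (fun p => ¬ (Nat.card G).factorization p ≤ d.factorization p)
  have hfs : ∀ p ∈ f.support, p.Prime := by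
    intro p hp
    rw [Finsupp.support_filter] at hp
    exact Nat.prime_of_mem_primeFactors (Finset.mem_filter.mp hp).1
  have hfs' : ∀ p ∈ f'.support, p.Prime := by
    intro p hp
    rw [Finsupp.support_filter] at hp
    exact Nat.prime_of_mem_primeFactors (Finset.mem_filter.mp hp).1
  set m := f.prod (· ^ ·) with hm
  set n := f'.prod (· ^ ·) with hn
  have hmf : m.factorization = f := Nat.prod_pow_factorization_eq_self hfs
  have hnf : n.factorization = f' := Nat.prod_pow_factorization_eq_self hfs'
  have hm0 : m ≠ 0 := Finset.prod_ne_zero_iff.mpr (fun p hp => pow_ne_zero _ (hfs p hp).ne_zero)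
  have hn0 : n ≠ 0 := Finset.prod_ne_zero_iff.mpr (fun p hp => pow_ne_zero _ (hfs' p hp).ne_zero)
  have hmn : Nat.card G = m * n := by
    apply Nat.eq_of_factorization_eq hG0 (mul_ne_zero hm0 hn0)
    intro p
    rw [Nat.factorization_mul hm0 hn0, hmf, hnf]
    exact (DFunLike.congr_fun (Finsupp.filter_add_filter_not (Nat.card G).factorization _) p).symm
  have hcop : m.Coprime n := by
    apply Nat.Coprime.symm
    apply Nat.coprime_of_dvd
    intro k hk hkn hkm
    have h1 : 0 < f k := by
      rw [← hmf]; exact hk.factorization_pos_of_dvd hm0 hkm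
    have h2 : 0 < f' k := by
      rw [← hnf]; exact hk.factorization_pos_of_dvd hn0 hkn
    by_cases h : (Nat.card G).factorization k ≤ d.factorization k
    · have : f' k = 0 := Finsupp.filter_apply_neg _ _ (by simpa using h)
      omega
    · have : f k = 0 := Finsupp.filter_apply_neg _ _ h
      omega
  obtain ⟨H, hH⟩ := H1.Hall.exists_card_eq hs m n hmn hcop
  have hmd : m ∣ d := by
    rw [← Nat.factorization_le_iff_dvd hm0 hd0, hmf]
    intro p
    by_cases h : (Nat.card G).factorization p ≤ d.factorization p
    · have : f p = (Nat.card G).factorization p := Finsupp.filter_apply_pos _ _ h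
      rw [this]; exact h
    · have : f p = 0 := Finsupp.filter_apply_neg _ _ h
      rw [this]; exact Nat.zero_le _
  obtain ⟨e, he⟩ := hmd
  have he0 : e ≠ 0 := by rintro rfl; exact hd0 (by rw [he, mul_zero])
  have hedvd : e ∣ Nat.card A := by
    rw [← Nat.factorization_le_iff_dvd he0 hA0]
    intro p
    have h1 : d.factorization p = f p + e.factorization p := by
      rw [he, Nat.factorization_mul hm0 he0, hmf]; rfl
    have h2 : d.factorization p ≤ (Nat.card G).factorization p + (Nat.card A).factorization p := by
      have := (Nat.factorization_le_iff_dvd hd0 (mul_ne_zero hG0 hA0)).mpr hd p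
      rwa [Nat.factorization_mul hG0 hA0] at this
    by_cases h : (Nat.card G).factorization p ≤ d.factorization p
    · have : f p = (Nat.card G).factorization p := Finsupp.filter_apply_pos _ _ h
      omega
    · have h3 : f p = 0 := Finsupp.filter_apply_neg _ _ h
      have h4 : (Nat.card G).factorization p ≠ 0 := by omega
      have h5 : p ∈ (Nat.card G).factorization.support := Finsupp.mem_support_iff.mpr h4
      have hp := Nat.prime_of_mem_primeFactors h5
      have hpG := Nat.dvd_of_mem_primeFactors h5
      have h6 := hexp p hp hpG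
      omega
  obtain ⟨B, hB⟩ := hasSubgroupOfEveryOrder (supersolvable_of_comm (A := A)) e hedvd
  refine ⟨H.prod B, ?_⟩
  rw [Nat.card_congr (Subgroup.prodEquiv H B).toEquiv, Nat.card_prod, hH, hB, he]

end H11.AbelianCLT
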