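import Mathlib

set_option autoImplicit false
set_option linter.unusedSectionVars false

/-! S3732 (Ostrom-Wagner), piece T4, part a: central and axial collineations. -/

namespace H11.OW

open Configuration

section plane

variable {P L : Type*} [Membership P L] [Finite P] [Finite L] [ProjectivePlane P L]

theorem line_eq {p q : P} {l m : L} (h : p ≠ q) (h1 : p ∈ l) (h2 : q ∈ l) (h3 : p ∈ m)
    (h4 : q ∈ m) : l = m :=
  (Nondegenerate.eq_or_eq h1 h2 h3 h4).resolve_left h

theorem point_eq {p q : P} {l m : L} (h : l ≠ m) (h1 : p ∈ l) (h2 : q ∈ l) (h3 : p ∈ m)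
    (h4 : q ∈ m) : p = q :=
  (Nondegenerate.eq_or_eq h1 h2 h3 h4).resolve_right h

theorem line3 (p : P) (l1 l2 : L) : ∃ l : L, p ∈ l ∧ l ≠ l1 ∧ l ≠ l2 := by
  classical
  by_contra hcon
  push Not at hcon
  have h := ProjectivePlane.two_lt_lineCount (P := P) (L := L) p
  unfold lineCount at h
  have h2 : Nat.card {l : L // p ∈ l} ≤ Nat.card ({l1, l2} : Finset L) := by
    refine Nat.card_le_card_of_injective
      (fun l => ⟨l.1, by
        by_cases hl : l.1 = l1
        · simp [hl]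
        · simp [hcon l.1 l.2 hl]⟩) ?_
    intro a b hab
    simp only [Subtype.mk.injEq] at hab
    exact Subtype.ext hab
  have h3 : Nat.card ({l1, l2} : Finset L) ≤ 2 := by
    rw [Nat.card_eq_fintype_card, Fintype.card_coe]
    exact Finset.card_le_two
  omega

theorem point3 (l : L) (p1 p2 : P) : ∃ p : P, p ∈ l ∧ p ≠ p1 ∧ p ≠ p2 := by
  classical
  by_contra hcon
  push Not at hcon
  have h := ProjectivePlane.two_lt_pointCount (P := P) (L := L) l
  unfold pointCount at h
  have h2 : Nat.card {p : P // p ∈ l} ≤ Nat.card ({p1, p2} : Finset P) := by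
    refine Nat.card_le_card_of_injective
      (fun p => ⟨p.1, by
        by_cases hp : p.1 = p1
        · simp [hp]
        · simp [hcon p.1 p.2 hp]⟩) ?_
    intro a b hab
    simp only [Subtype.mk.injEq] at hab
    exact Subtype.ext hab
  have h3 : Nat.card ({p1, p2} : Finset P) ≤ 2 := by
    rw [Nat.card_eq_fintype_card, Fintype.card_coe]
    exact Finset.card_le_two
  omega

theorem exists_meet (l m : L) : ∃ p : P, p ∈ l ∧ p ∈ m := by
  by_cases h : l = m
  · obtain ⟨p, hp, -⟩ := point3 (P := P) l (Classical.choice (by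
      obtain ⟨p, -⟩ := Nondegenerate.exists_point (P := P) l; exact ⟨p⟩)) (Classical.choice (by
      obtain ⟨p, -⟩ := Nondegenerate.exists_point (P := P) l; exact ⟨p⟩))
    exact ⟨p, hp, h ▸ hp⟩
  · exact ⟨HasPoints.mkPoint h, HasPoints.mkPoint_ax h⟩

theorem exists_join (p q : P) : ∃ l : L, p ∈ l ∧ q ∈ l := by
  by_cases h : p = q
  · obtain ⟨l0, -⟩ := Nondegenerate.exists_line (L := L) p
    obtain ⟨l, hl, -⟩ := line3 p l0 l0
    exact ⟨l, hl, h ▸ hl⟩
  · exact ⟨HasLines.mkLine h, HasLines.mkLine_ax h⟩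

/-- a point off `m` and different from `c` -/
theorem exists_off (c : P) (m : L) : ∃ q : P, q ≠ c ∧ q ∉ m := by
  obtain ⟨l, hcl, hlm, -⟩ := line3 c m m
  obtain ⟨r, hrl, hrm⟩ := exists_meet (P := P) l m
  obtain ⟨q, hql, hqc, hqr⟩ := point3 l c r
  exact ⟨q, hqc, fun h => hqr (point_eq hlm hql hrl h hrm)⟩

end plane

section act

variable {G P L : Type*} [Group G] [MulAction G P] [MulAction G L] [Membership P L]
  [Finite P] [Finite L] [ProjectivePlane P L]
  (hinc : ∀ (g : G) (p : P) (l : L), g • p ∈ g • l ↔ p ∈ l)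

include hinc

theorem fix_line_of_two {g : G} {p q : P} {l : L} (h : p ≠ q) (hp : p ∈ l) (hq : q ∈ l)
    (h1 : g • p = p) (h2 : g • q = q) : g • l = l := by
  refine line_eq h ?_ ?_ hp hq
  · have := (hinc g p l).2 hp; rwa [h1] at this
  · have := (hinc g q l).2 hq; rwa [h2] at this

theorem fix_point_of_two {g : G} {p : P} {l m : L} (h : l ≠ m) (hp : p ∈ l) (hq : p ∈ m)
    (h1 : g • l = l) (h2 : g • m = m) : g • p = p := by
  refine point_eq h ?_ hp ?_ hq
  · have := (hinc g p l).2 hp; rwa [h1] at this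
  · have := (hinc g p m).2 hq; rwa [h2] at this

omit hinc in
variable (L) in
/-- `g` fixes all lines through `c` -/
def Cen (c : P) (g : G) : Prop := ∀ l : L, c ∈ l → g • l = l

omit hinc in
/-- `g` fixes all points of `m` -/
def Axi (m : L) (g : G) : Prop := ∀ p : P, p ∈ m → g • p = p

variable (L) in
theorem cen_fix {c : P} {g : G} (h : Cen L c g) : g • c = c := by
  obtain ⟨l0, -⟩ := Nondegenerate.exists_line (L := L) c
  obtain ⟨l1, h1, -⟩ := line3 c l0 l0
  obtain ⟨l2, h2, h3, -⟩ := line3 c l1 l1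
  exact fix_point_of_two hinc h3 h2 h1 (h _ h2) (h _ h1)

theorem cen_line_pts {c : P} {g : G} (h : Cen L c g) {m : L} (hcm : c ∉ m) (hm : g • m = m) :
    Axi (P := P) m g := by
  intro p hp
  obtain ⟨l, h1, h2⟩ := exists_join (L := L) c p
  have hlm : l ≠ m := fun h' => hcm (h' ▸ h1)
  exact fix_point_of_two hinc hlm h2 hp (h _ h1) hm

theorem axi_fix {m : L} {g : G} (h : Axi (P := P) m g) : g • m = m := by
  obtain ⟨q, -⟩ := Nondegenerate.exists_point (P := P) m
  obtain ⟨p1, h1, -⟩ := point3 (P := P) m q q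
  obtain ⟨p2, h2, h3, -⟩ := point3 (P := P) m p1 p1
  exact fix_line_of_two hinc (Ne.symm h3) h1 h2 (h _ h1) (h _ h2)

theorem axi_two {m1 m2 : L} {g : G} (h : m1 ≠ m2) (h1 : Axi (P := P) m1 g)
    (h2 : Axi (P := P) m2 g) (z : P) : g • z = z := by
  by_cases hz1 : z ∈ m1
  · exact h1 z hz1
  by_cases hz2 : z ∈ m2
  · exact h2 z hz2
  obtain ⟨w, hw1, hw2⟩ := exists_meet (P := P) m1 m2
  obtain ⟨k, hk1, hk2⟩ := exists_join (L := L) z w
  have key : ∀ l : L, z ∈ l → l ≠ k → g • l = l := by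
    intro l hl hlk
    obtain ⟨a, ha, ha1⟩ := exists_meet (P := P) l m1
    obtain ⟨b, hb, hb2⟩ := exists_meet (P := P) l m2
    have hwl : w ∉ l := by
      intro hwl
      refine hlk (line_eq ?_ hl hwl hk1 hk2)
      rintro rfl
      exact hz1 hw1
    have hab : a ≠ b := by
      rintro rfl
      exact hwl ((point_eq h ha1 hw1 hb2 hw2) ▸ ha)
    exact fix_line_of_two hinc hab ha hb (h1 _ ha1) (h2 _ hb2)
  obtain ⟨l1, hl1, hl1k, -⟩ := line3 z k k
  obtain ⟨l2, hl2, hl2k, hl21⟩ := line3 z k l1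
  exact fix_point_of_two hinc hl21 hl2 hl1 (key _ hl2 hl2k) (key _ hl1 hl1k)

/-- a central collineation without fixed line off the centre is an elation -/
theorem cen_axis {c : P} {g : G} (h : Cen L c g) (hno : ∀ l : L, c ∉ l → g • l ≠ l) :
    ∃ m : L, c ∈ m ∧ Axi (P := P) m g := by
  have hgc := cen_fix L hinc h
  have stepA : ∀ l : L, c ∉ l → ∃ p : P, p ∈ l ∧ g • p = p := by
    intro l hl
    obtain ⟨p, hp, hp'⟩ := exists_meet (P := P) l (g • l)
    refine ⟨p, hp, ?_⟩
    by_contra hne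
    obtain ⟨k, hk1, hk2⟩ := exists_join (L := L) c p
    have h1 : g • k = k := h _ hk1
    have h2 : g • p ∈ k := by
      have := (hinc g p k).2 hk2; rwa [h1] at this
    have h3 : g • p ∈ g • l := (hinc g p l).2 hp
    have h4 : k = g • l := line_eq (Ne.symm hne) hk2 h2 hp' h3
    have h5 : g • c ∈ g • l := by rw [hgc, ← h4]; exact hk1
    exact hl ((hinc g c l).1 h5)
  obtain ⟨l0, hl0⟩ := Nondegenerate.exists_line (L := L) c
  obtain ⟨p0, hp0, hgp0⟩ := stepA l0 hl0
  have hcp0 : c ≠ p0 := fun h' => hl0 (h' ▸ hp0)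
  obtain ⟨m, hm1, hm2⟩ := exists_join (L := L) c p0
  refine ⟨m, hm1, ?_⟩
  intro R hR
  by_cases hRc : R = c
  · rw [hRc]; exact hgc
  obtain ⟨l, hRl, hlm, -⟩ := line3 R m m
  have hcl : c ∉ l := fun h' => hlm (line_eq hRc hRl h' hR hm1)
  obtain ⟨Q, hQ, hgQ⟩ := stepA l hcl
  by_cases hQR : Q = R
  · rw [← hQR]; exact hgQ
  exfalso
  have hQm : Q ∉ m := fun h' => hQR (point_eq hlm hQ hRl h' hR)
  have hQp : Q ≠ p0 := fun h' => hQm (h' ▸ hm2)
  obtain ⟨k, hk1, hk2⟩ := exists_join (L := L) Q p0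
  have hgk := fix_line_of_two hinc hQp hk1 hk2 hgQ hgp0
  by_cases hck : c ∈ k
  · exact hQm ((line_eq hcp0 hck hk2 hm1 hm2) ▸ hk1)
  · exact hno k hck hgk

/-- fixed points of a nontrivial elation are on the axis -/
theorem elation_fix {c : P} {g : G} {m : L} (h : Cen L c g) (hcm : c ∈ m) (ha : Axi (P := P) m g)
    {y : P} (hy : g • y = y) (hym : y ∉ m) (z : P) : g • z = z := by
  have hyc : y ≠ c := fun h' => hym (h' ▸ hcm)
  obtain ⟨k, hk1, hk2⟩ := exists_join (L := L) c y
  obtain ⟨l, hl, hlk, -⟩ := line3 y k k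
  have hcl : c ∉ l := fun h' => hlk (line_eq hyc hl h' hk2 hk1)
  obtain ⟨a, ha1, ha2⟩ := exists_meet (P := P) l m
  have hay : y ≠ a := fun h' => hym (h' ▸ ha2)
  have hgl : g • l = l := fix_line_of_two hinc hay hl ha1 hy (ha _ ha2)
  have hlm : l ≠ m := fun h' => hym (h' ▸ hl)
  exact axi_two hinc hlm (cen_line_pts hinc h hcl hgl) ha z

/-- axial collineations are central -/
theorem axi_cen {m : L} {g : G} (ha : Axi (P := P) m g) : ∃ c : P, Cen L c g := by
  by_cases hc : ∃ c : P, c ∉ m ∧ g • c = c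
  · obtain ⟨c, hcm, hgc⟩ := hc
    refine ⟨c, fun l hl => ?_⟩
    obtain ⟨a, ha1, ha2⟩ := exists_meet (P := P) l m
    have hca : c ≠ a := fun h' => hcm (h' ▸ ha2)
    exact fix_line_of_two hinc hca hl ha1 hgc (ha _ ha2)
  · push Not at hc
    have hgm := axi_fix hinc ha
    have hoff : ∀ p : P, p ∉ m → g • p ∉ m := by
      intro p hp h'
      rw [← hgm] at h'
      exact hp ((hinc g p m).1 h')
    -- the fixed line through a point off `m`
    have h1 : ∀ p : P, p ∉ m → ∃ l : L, p ∈ l ∧ g • l = l := by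
      intro p hp
      obtain ⟨l, hl1, hl2⟩ := exists_join (L := L) p (g • p)
      obtain ⟨a, ha1, ha2⟩ := exists_meet (P := P) l m
      refine ⟨l, hl1, ?_⟩
      have hne : g • p ≠ a := fun h' => hoff p hp (h' ▸ ha2)
      refine line_eq hne ((hinc g p l).2 hl1) ?_ hl2 ha1
      have := (hinc g a l).2 ha1
      rwa [ha _ ha2] at this
    -- two fixed lines different from `m` meet on `m`
    have h2 : ∀ l l' : L, l ≠ l' → g • l = l → g • l' = l' → ∀ c : P, c ∈ l → c ∈ l' → c ∈ m := by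
      intro l l' hll hl hl' c hc1 hc2
      by_contra hcm
      exact hc c hcm (fix_point_of_two hinc hll hc1 hc2 hl hl')
    obtain ⟨p, hp⟩ := Nondegenerate.exists_point (P := P) m
    obtain ⟨l1, hpl1, hl1⟩ := h1 p hp
    obtain ⟨c, hcl1, hcm⟩ := exists_meet (P := P) l1 m
    refine ⟨c, fun l hl => ?_⟩
    by_cases hlm : l = m
    · rw [hlm]; exact hgm
    obtain ⟨q, hql, hqc, -⟩ := point3 l c c
    have hqm : q ∉ m := fun h' => hlm (line_eq hqc hql hl h' hcm)
    obtain ⟨k, hqk, hk⟩ := h1 q hqm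
    by_cases hkl1 : k = l1
    · have : l = k := line_eq hqc hql hl hqk (hkl1 ▸ hcl1)
      rw [this]; exact hk
    · obtain ⟨d, hd1, hd2⟩ := exists_meet (P := P) k l1
      have hdm := h2 k l1 hkl1 hk hl1 d hd1 hd2
      have hl1m : l1 ≠ m := fun h' => hp (h' ▸ hpl1)
      have hdc : d = c := point_eq hl1m hd2 hcl1 hdm hcm
      have : l = k := line_eq hqc hql hl hqk (hdc ▸ hd1)
      rw [this]; exact hk

end act

end H11.OW
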