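import Cfsg.Agent.Lib.H11.OW4a

set_option autoImplicit false
set_option linter.unusedSectionVars false

/-! S3732 (Ostrom-Wagner), piece T4, part b: existence of elations. -/

namespace H11.OW

open Configuration

/-- in an orbit, the number of pairs (nonidentity element, fixed point) -/
theorem card_pairs {K Y : Type*} [Group K] [Finite K] [MulAction K Y] (y0 : Y) :
    Nat.card (Σ z : MulAction.orbit K y0, {k : K // k ≠ 1 ∧ k • (z : Y) = z}) +
      Nat.card (MulAction.orbit K y0) = Nat.card K := by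
  classical
  have : Finite (MulAction.orbit K y0) := Finite.of_surjective
    (fun k : K => (⟨k • y0, MulAction.mem_orbit y0 k⟩ : MulAction.orbit K y0)) (by
      rintro ⟨z, k, hk⟩
      exact ⟨k, Subtype.ext hk⟩)
  have := Fintype.ofFinite (MulAction.orbit K y0)
  have h1 : ∀ z : MulAction.orbit K y0, Nat.card {k : K // k ≠ 1 ∧ k • (z : Y) = z} + 1 =
      Nat.card (MulAction.stabilizer K (z : Y)) := by
    intro z
    have e : Option {k : K // k ≠ 1 ∧ k • (z : Y) = z} ≃ MulAction.stabilizer K (z : Y) :=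
      { toFun := fun o => match o with
          | none => 1
          | some k => ⟨k.1, k.2.2⟩
        invFun := fun k => if h : k = 1 then none else some ⟨k.1, fun h' => h (Subtype.ext h'), k.2⟩
        left_inv := by
          rintro (_ | ⟨k, hk1, hk2⟩)
          · simp
          · have : (⟨k, hk2⟩ : MulAction.stabilizer K (z : Y)) ≠ 1 := fun h =>
              hk1 (congrArg Subtype.val h)
            simp [this]
        right_inv := by
          intro k
          by_cases h : k = 1
          · simp [h]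
          · simp [h] }
    rw [← Nat.card_congr e, Finite.card_option]
  have h2 : ∀ z : MulAction.orbit K y0, Nat.card (MulAction.stabilizer K (z : Y)) =
      Nat.card (MulAction.stabilizer K y0) := by
    intro z
    obtain ⟨k, hk⟩ := z.2
    have hk' : k • y0 = (z : Y) := hk
    rw [← hk', MulAction.stabilizer_smul_eq_stabilizer_map_conj]
    exact Nat.card_congr (Subgroup.equivMapOfInjective _ _
      (MulAut.conj k).injective).symm.toEquiv
  rw [Nat.card_sigma]
  have h3 : ∀ z : MulAction.orbit K y0, Nat.card {k : K // k ≠ 1 ∧ k • (z : Y) = z} =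
      Nat.card (MulAction.stabilizer K y0) - 1 := by
    intro z
    have := h1 z
    rw [h2 z] at this
    omega
  simp only [h3, Finset.sum_const, Finset.card_univ, smul_eq_mul]
  have h4 : Nat.card K = Nat.card (MulAction.orbit K y0) * Nat.card (MulAction.stabilizer K y0) := by
    rw [← Nat.card_prod]
    exact (Nat.card_congr (MulAction.orbitProdStabilizerEquivGroup K y0)).symm
  rw [h4, Nat.card_eq_fintype_card (α := MulAction.orbit K y0)]
  have h5 : 0 < Nat.card (MulAction.stabilizer K y0) := Nat.card_pos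
  obtain ⟨t, ht⟩ : ∃ t, Nat.card (MulAction.stabilizer K y0) = t + 1 := ⟨_, (Nat.succ_pred_eq_of_pos h5).symm⟩
  rw [ht]
  simp
  ring

/-- if every nonidentity element fixes exactly one point, there is a global fixed point -/
theorem exists_fixed {K Y : Type*} [Group K] [Finite K] [MulAction K Y]
    (h : ∀ k : K, k ≠ 1 → ∃ y : Y, k • y = y)
    (hu : ∀ k : K, k ≠ 1 → ∀ y z : Y, k • y = y → k • z = z → y = z)
    (hK : ∃ k : K, k ≠ 1) : ∃ y : Y, ∀ k : K, k • y = y := by
  classical
  obtain ⟨k0, hk0⟩ := hK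
  obtain ⟨y0, hy0⟩ := h k0 hk0
  refine ⟨y0, ?_⟩
  by_contra hcon
  push Not at hcon
  obtain ⟨k', hk'⟩ := hcon
  -- the orbit of a point with nontrivial stabilizer has size ≤ |K|/2
  have hhalf : ∀ y : Y, ∀ k : K, k ≠ 1 → k • y = y → 2 * Nat.card (MulAction.orbit K y) ≤ Nat.card K := by
    intro y k hk hky
    have h4 : Nat.card K = Nat.card (MulAction.orbit K y) * Nat.card (MulAction.stabilizer K y) := by
      rw [← Nat.card_prod]
      exact (Nat.card_congr (MulAction.orbitProdStabilizerEquivGroup K y)).symm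
    have h5 : 2 ≤ Nat.card (MulAction.stabilizer K y) := by
      by_contra h6
      have h7 : Nat.card (MulAction.stabilizer K y) = 1 := by
        have : 0 < Nat.card (MulAction.stabilizer K y) := Nat.card_pos
        omega
      have h8 := (Subgroup.card_eq_one).1 h7
      have h9 : k ∈ MulAction.stabilizer K y := hky
      rw [h8] at h9
      exact hk ((Subgroup.mem_bot).1 h9)
    rw [h4, mul_comm 2]
    exact Nat.mul_le_mul_left _ h5
  have hfinO : ∀ y : Y, Finite (MulAction.orbit K y) := fun y => Finite.of_surjective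
    (fun k : K => (⟨k • y, MulAction.mem_orbit y k⟩ : MulAction.orbit K y)) (by
      rintro ⟨z, k, hk⟩
      exact ⟨k, Subtype.ext hk⟩)
  -- the map to nonidentity elements
  let F : ∀ y : Y, (Σ z : MulAction.orbit K y, {k : K // k ≠ 1 ∧ k • (z : Y) = z}) → {k : K // k ≠ 1} :=
    fun y p => ⟨p.2.1, p.2.2.1⟩
  have hF : ∀ y : Y, Function.Injective (F y) := by
    rintro y ⟨z, k, hk1, hk2⟩ ⟨z', k', hk1', hk2'⟩ hpq
    have h1 : k = k' := congrArg Subtype.val hpq
    subst h1
    have h2 : z = z' := Subtype.ext (hu k hk1 _ _ hk2 hk2')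
    subst h2
    rfl
  have hK1 : Nat.card {k : K // k ≠ 1} + 1 = Nat.card K := by
    have e : Option {k : K // k ≠ 1} ≃ K :=
      { toFun := fun o => match o with
          | none => 1
          | some k => k.1
        invFun := fun k => if h : k = 1 then none else some ⟨k, h⟩
        left_inv := by
          rintro (_ | ⟨k, hk1⟩)
          · simp
          · simp [hk1]
        right_inv := by
          intro k
          by_cases h : k = 1
          · simp [h]
          · simp [h] }
    rw [← Nat.card_congr e, Finite.card_option]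
  by_cases hall : ∀ k : K, k ≠ 1 → ∃ z ∈ MulAction.orbit K y0, k • z = z
  · -- one orbit: it has one element
    have hsurj : Function.Surjective (F y0) := by
      rintro ⟨k, hk⟩
      obtain ⟨z, hz, hkz⟩ := hall k hk
      exact ⟨⟨⟨z, hz⟩, ⟨k, hk, hkz⟩⟩, rfl⟩
    have h1 := Nat.card_congr (Equiv.ofBijective (F y0) ⟨hF y0, hsurj⟩)
    have h2 := card_pairs (K := K) y0
    have h3 : Nat.card (MulAction.orbit K y0) = 1 := by omega
    have h4 := (Nat.card_eq_one_iff_unique.1 h3).1
    have h5 := h4.elim (⟨k' • y0, MulAction.mem_orbit y0 k'⟩ : MulAction.orbit K y0)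
      ⟨y0, MulAction.mem_orbit_self y0⟩
    exact hk' (congrArg Subtype.val h5)
  · push Not at hall
    obtain ⟨k1, hk1, hno⟩ := hall
    obtain ⟨y1, hy1⟩ := h k1 hk1
    have hy10 : y1 ∉ MulAction.orbit K y0 := fun h' => hno y1 h' hy1
    let F' : (Σ z : MulAction.orbit K y0, {k : K // k ≠ 1 ∧ k • (z : Y) = z}) ⊕
        (Σ z : MulAction.orbit K y1, {k : K // k ≠ 1 ∧ k • (z : Y) = z}) → {k : K // k ≠ 1} :=
      Sum.elim (F y0) (F y1)
    have hF' : Function.Injective F' := by
      refine (hF y0).sumElim (hF y1) ?_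
      rintro ⟨⟨z, hz⟩, k, hk1, hk2⟩ ⟨⟨z', hz'⟩, k', hk1', hk2'⟩ hpq
      have h1 : k = k' := congrArg Subtype.val hpq
      subst h1
      have h2 : z = z' := hu k hk1 _ _ hk2 hk2'
      subst h2
      have h3 := MulAction.orbit_eq_iff.2 hz
      have h4 := MulAction.orbit_eq_iff.2 hz'
      exact hy10 (by rw [← h3, h4]; exact MulAction.mem_orbit_self y1)
    have h1 := Nat.card_le_card_of_injective F' hF'
    have h0 := hfinO y0
    have h0' := hfinO y1
    rw [Nat.card_sum] at h1
    have h2 := card_pairs (K := K) y0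
    have h3 := card_pairs (K := K) y1
    have h4 := hhalf y0 k0 hk0 hy0
    have h5 := hhalf y1 k1 hk1 hy1
    omega

section act

variable {G P L : Type*} [Group G] [Finite G] [MulAction G P] [MulAction G L] [Membership P L]
  [Finite P] [Finite L] [ProjectivePlane P L]
  (hinc : ∀ (g : G) (p : P) (l : L), g • p ∈ g • l ↔ p ∈ l)
  (faith : ∀ g : G, (∀ p : P, g • p = p) → g = 1)
  (h2t : ∀ x y x' y' : P, x ≠ y → x' ≠ y' → ∃ g : G, g • x = x' ∧ g • y = y')

/-- conjugates of central collineations -/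
theorem cen_conj {c : P} {g : G} (h : G) (hc : Cen L c g)
    (hinc : ∀ (g : G) (p : P) (l : L), g • p ∈ g • l ↔ p ∈ l) : Cen L (h • c) (h * g * h⁻¹) := by
  intro l hl
  have h1 : c ∈ h⁻¹ • l := by
    have := (hinc h⁻¹ (h • c) l).2 hl
    rwa [inv_smul_smul] at this
  rw [mul_smul, mul_smul, hc _ h1, smul_inv_smul]

theorem axi_conj {m : L} {g : G} (h : G) (ha : Axi (P := P) m g)
    (hinc : ∀ (g : G) (p : P) (l : L), g • p ∈ g • l ↔ p ∈ l) :
    Axi (P := P) (h • m) (h * g * h⁻¹) := by
  intro p hp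
  have h1 : h⁻¹ • p ∈ m := by
    have := (hinc h⁻¹ p (h • m)).2 hp
    rwa [inv_smul_smul] at this
  rw [mul_smul, mul_smul, ha _ h1, smul_inv_smul]

variable (L) in
/-- the group of central collineations with centre `c` -/
def CG (c : P) : Subgroup G where
  carrier := {g | Cen L c g}
  one_mem' := fun l _ => one_smul _ l
  mul_mem' := by
    intro a b ha hb l hl
    rw [mul_smul, hb l hl, ha l hl]
  inv_mem' := by
    intro a ha l hl
    rw [inv_smul_eq_iff, ha l hl]

theorem mem_CG {c : P} {g : G} : g ∈ CG L c ↔ Cen L c g := Iff.rfl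

include hinc faith h2t in
theorem exists_elation (hg : ∃ (c : P) (g : G), Cen L c g ∧ g ≠ 1) :
    ∃ (c : P) (g : G) (m : L), Cen L c g ∧ c ∈ m ∧ Axi (P := P) m g ∧ g ≠ 1 := by
  classical
  by_contra hcon
  push Not at hcon
  obtain ⟨c, g0, hg0, hg01⟩ := hg
  -- action of CG c on the lines off c
  let Y := {l : L // c ∉ l}
  have hact : ∀ (k : CG (G := G) L c) (l : L), c ∉ l → c ∉ (k : G) • l := by
    intro k l hl h'
    have h1 := cen_fix L hinc (mem_CG.1 k.2)
    exact hl ((hinc (k : G) c l).1 (by rwa [h1]))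
  let act : MulAction (CG (G := G) L c) Y :=
    { smul := fun k y => ⟨(k : G) • y.1, hact k y.1 y.2⟩
      one_smul := fun y => Subtype.ext (one_smul G y.1)
      mul_smul := fun a b y => Subtype.ext (mul_smul (a : G) (b : G) y.1) }
  have hsm : ∀ (k : CG (G := G) L c) (y : Y), k • y = y ↔ (k : G) • y.1 = y.1 := fun k y =>
    ⟨fun h => congrArg Subtype.val h, fun h => Subtype.ext h⟩
  have hne1 : ∀ k : CG (G := G) L c, k ≠ 1 → (k : G) ≠ 1 := fun k hk h => hk (Subtype.ext h)
  -- uniqueness
  have huniq : ∀ k : G, Cen L c k → k ≠ 1 → ∀ l l' : L, c ∉ l → c ∉ l' → k • l = l → k • l' = l' →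
      l = l' := by
    intro k hk hk1 l l' hl hl' h1 h2
    by_contra hll
    exact hk1 (faith k (axi_two hinc hll (cen_line_pts hinc hk hl h1)
      (cen_line_pts hinc hk hl' h2)))
  obtain ⟨⟨m0, hm0⟩, hfix⟩ := exists_fixed (K := CG (G := G) L c) (Y := Y)
    (by
      intro k hk
      by_contra h
      push Not at h
      obtain ⟨m, hcm, hm⟩ := cen_axis hinc (mem_CG.1 k.2) (fun l hl h' =>
        h ⟨l, hl⟩ ((hsm k ⟨l, hl⟩).2 h'))
      exact hne1 k hk (hcon c k m (mem_CG.1 k.2) hcm hm))
    (by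
      intro k hk y z h1 h2
      exact Subtype.ext (huniq k (mem_CG.1 k.2) (hne1 k hk) _ _ y.2 z.2 ((hsm k y).1 h1)
        ((hsm k z).1 h2)))
    ⟨⟨g0, hg0⟩, fun h => hg01 (congrArg Subtype.val h)⟩
  -- stabilizer of c fixes m0
  have hst : ∀ h : G, h • c = c → h • m0 = m0 := by
    intro h hh
    have hc' : c ∉ h • m0 := by
      intro h'
      exact hm0 ((hinc h c m0).1 (by rwa [hh]))
    refine huniq g0 hg0 hg01 _ _ hc' hm0 ?_ ((hsm ⟨g0, hg0⟩ ⟨m0, hm0⟩).1 (hfix _))
    have h1 : h⁻¹ • c = c := by rw [inv_smul_eq_iff, hh]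
    have h2 := cen_conj h⁻¹ hg0 hinc
    rw [h1, inv_inv] at h2
    have h3 := (hsm ⟨_, h2⟩ ⟨m0, hm0⟩).1 (hfix _)
    have h4 : (h⁻¹ * g0 * h) • m0 = m0 := h3
    rw [mul_smul, mul_smul, inv_smul_eq_iff] at h4
    exact h4
  obtain ⟨p, hpm, hpc, -⟩ := point3 m0 c c
  obtain ⟨q, hqc, hqm⟩ := exists_off c m0
  obtain ⟨h, h1, h2⟩ := h2t c p c q (Ne.symm hpc) (Ne.symm hqc)
  apply hqm
  have := (hinc h p m0).2 hpm
  rwa [h2, hst h h1] at this

end act

end H11.OW
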