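import Cfsg.Agent.Lib.H11.OW4b
import Cfsg.Agent.Lib.H89.ON10

set_option autoImplicit false
set_option linter.unusedSectionVars false

/-! S3732 (Ostrom-Wagner), piece T4, part c: the O'Nan configuration of elations. -/

namespace H11.OW

open Configuration

section act

variable {G P L : Type*} [Group G] [Finite G] [MulAction G P] [MulAction G L] [Membership P L]
  [Finite P] [Finite L] [ProjectivePlane P L]
  (hinc : ∀ (g : G) (p : P) (l : L), g • p ∈ g • l ↔ p ∈ l)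
  (faith : ∀ g : G, (∀ p : P, g • p = p) → g = 1)
  (h2t : ∀ x y x' y' : P, x ≠ y → x' ≠ y' → ∃ g : G, g • x = x' ∧ g • y = y')

variable (L) in
/-- elations with centre `c` -/
def Ela (c : P) (g : G) : Prop := Cen L c g ∧ ∃ m : L, c ∈ m ∧ Axi (P := P) m g

include hinc h2t in
theorem flag_elation (hex : ∃ (c : P) (g : G) (m : L), Cen L c g ∧ c ∈ m ∧ Axi (P := P) m g ∧ g ≠ 1)
    (x : P) (m : L) (hx : x ∈ m) : ∃ g : G, Cen L x g ∧ Axi (P := P) m g ∧ g ≠ 1 := by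
  obtain ⟨c, g, m0, hc, hcm, ha, hg⟩ := hex
  obtain ⟨y0, hy0, hy0c, -⟩ := point3 m0 c c
  obtain ⟨y, hy, hyx, -⟩ := point3 m x x
  obtain ⟨h, h1, h2⟩ := h2t c y0 x y (Ne.symm hy0c) (Ne.symm hyx)
  refine ⟨h * g * h⁻¹, ?_, ?_, ?_⟩
  · have := cen_conj h hc hinc
    rwa [h1] at this
  · have h3 := axi_conj h ha hinc
    have h4 : h • m0 = m := by
      refine line_eq (Ne.symm hyx) ?_ ?_ hx hy
      · have := (hinc h c m0).2 hcm; rwa [h1] at this
      · have := (hinc h y0 m0).2 hy0; rwa [h2] at this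
    rwa [h4] at h3
  · intro h'
    exact hg (conj_eq_one_iff.1 h')

theorem cen_mul {c : P} {a b : G} (ha : Cen L c a) (hb : Cen L c b) : Cen L c (a * b) :=
  (CG L c).mul_mem (mem_CG.2 ha) (mem_CG.2 hb)

theorem cen_inv {c : P} {a : G} (ha : Cen L c a) : Cen L c a⁻¹ :=
  (CG L c).inv_mem (mem_CG.2 ha)

theorem axi_mul {m : L} {a b : G} (ha : Axi (P := P) m a) (hb : Axi (P := P) m b) :
    Axi (P := P) m (a * b) := fun p hp => by rw [mul_smul, hb p hp, ha p hp]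

theorem axi_inv {m : L} {a : G} (ha : Axi (P := P) m a) : Axi (P := P) m a⁻¹ :=
  fun p hp => by rw [inv_smul_eq_iff, ha p hp]

include hinc faith in
theorem ela_mul {c : P} {a b : G} (ha : Ela L c a) (hb : Ela L c b) : Ela L c (a * b) := by
  obtain ⟨hca, m1, hm1, ha1⟩ := ha
  obtain ⟨hcb, m2, hm2, hb2⟩ := hb
  refine ⟨cen_mul hca hcb, ?_⟩
  by_cases hm : m1 = m2
  · subst hm
    exact ⟨m1, hm1, axi_mul ha1 hb2⟩
  by_cases hno : ∀ l : L, c ∉ l → (a * b) • l ≠ l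
  · exact cen_axis hinc (cen_mul hca hcb) hno
  push Not at hno
  obtain ⟨l, hcl, hl⟩ := hno
  obtain ⟨p1, h11, h12⟩ := exists_meet (P := P) l m1
  obtain ⟨p2, h21, h22⟩ := exists_meet (P := P) l m2
  have hne : p1 ≠ p2 := by
    rintro rfl
    exact hcl ((point_eq hm h12 hm1 h22 hm2) ▸ h11)
  have hbl : b • l = a⁻¹ • l := by
    rw [eq_inv_smul_iff, ← mul_smul, hl]
  have h3 : p2 ∈ b • l := by
    have := (hinc b p2 l).2 h21
    rwa [hb2 _ h22] at this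
  have h4 : p1 ∈ b • l := by
    rw [hbl]
    have := (hinc a⁻¹ p1 l).2 h11
    rwa [axi_inv ha1 _ h12] at this
  have h5 : b • l = l := line_eq hne h4 h3 h11 h21
  have hlm : l ≠ m2 := fun h' => hcl (h' ▸ hm2)
  have hb1 : b = 1 := faith b (axi_two hinc hlm (cen_line_pts hinc hcb hcl h5) hb2)
  rw [hb1, mul_one]
  exact ⟨m1, hm1, ha1⟩

/-- the group of elations with centre `c` -/
def EG (hinc : ∀ (g : G) (p : P) (l : L), g • p ∈ g • l ↔ p ∈ l)
    (faith : ∀ g : G, (∀ p : P, g • p = p) → g = 1) (c : P) : Subgroup G where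
  carrier := {g | Ela L c g}
  one_mem' := by
    obtain ⟨l, hl, -⟩ := exists_join (L := L) c c
    exact ⟨fun l _ => one_smul _ l, l, hl, fun p _ => one_smul _ p⟩
  mul_mem' := fun ha hb => ela_mul hinc faith ha hb
  inv_mem' := by
    rintro a ⟨ha, m, hm, ham⟩
    exact ⟨cen_inv ha, m, hm, axi_inv ham⟩

theorem mem_EG {c : P} {g : G} : g ∈ EG hinc faith c ↔ Ela L c g := Iff.rfl

include hinc faith in
theorem comm_diff {x : P} {a b : G} {m1 m2 : L} (ha : Cen L x a) (hb : Cen L x b) (h1 : x ∈ m1)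
    (h2 : x ∈ m2) (hm : m1 ≠ m2) (ha1 : Axi (P := P) m1 a) (hb2 : Axi (P := P) m2 b) :
    a * b = b * a := by
  have h3 : Axi (P := P) m1 (a * (b * a⁻¹ * b⁻¹)) := by
    refine axi_mul ha1 ?_
    have := axi_conj b (axi_inv ha1) hinc
    rwa [hb m1 h1] at this
  have h4 : Axi (P := P) m2 ((a * b * a⁻¹) * b⁻¹) := by
    refine axi_mul ?_ (axi_inv hb2)
    have := axi_conj a hb2 hinc
    rwa [ha m2 h2] at this
  have h5 : a * (b * a⁻¹ * b⁻¹) = (a * b * a⁻¹) * b⁻¹ := by group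
  rw [← h5] at h4
  have h6 := faith _ (axi_two hinc hm h3 h4)
  have h7 : a * b * a⁻¹ * b⁻¹ = 1 := by rw [← h5]; exact h6
  have h8 : a * b * a⁻¹ = b := by rwa [mul_inv_eq_one] at h7
  rwa [mul_inv_eq_iff_eq_mul] at h8

include hinc faith in
theorem ela_comm (hfl : ∀ (x : P) (m : L), x ∈ m → ∃ g : G, Cen L x g ∧ Axi (P := P) m g ∧ g ≠ 1)
    {x : P} {a b : G} (ha : Ela L x a) (hb : Ela L x b) : a * b = b * a := by
  obtain ⟨hca, m1, hm1, ha1⟩ := ha
  obtain ⟨hcb, m2, hm2, hb2⟩ := hb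
  by_cases hm : m1 = m2
  · subst hm
    obtain ⟨m', hm', hne, -⟩ := line3 x m1 m1
    obtain ⟨c, hcc, hc', hc1⟩ := hfl x m' hm'
    have hac : a * c = c * a := comm_diff hinc faith hca hcc hm1 hm' (Ne.symm hne) ha1 hc'
    obtain ⟨hcbc, m3, hm3, hbc⟩ := ela_mul hinc faith (L := L) (c := x) (a := b) (b := c)
      ⟨hcb, m1, hm1, hb2⟩ ⟨hcc, m', hm', hc'⟩
    by_cases h3 : m3 = m1
    · exfalso
      apply hc1
      have h4 : Axi (P := P) m1 (b⁻¹ * (b * c)) := axi_mul (axi_inv hb2) (h3 ▸ hbc)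
      rw [inv_mul_cancel_left] at h4
      exact faith c (axi_two hinc hne hc' h4)
    · have h4 : a * (b * c) = (b * c) * a :=
        comm_diff hinc faith hca hcbc hm1 hm3 (Ne.symm h3) ha1 hbc
      have h5 : a * b * c = b * a * c := by
        rw [mul_assoc, h4, mul_assoc, ← hac, mul_assoc]
      exact mul_right_cancel h5
  · exact comm_diff hinc faith hca hcb hm1 hm2 hm ha1 hb2

/-- the O'Nan configuration -/
noncomputable def dat
    (hinc : ∀ (g : G) (p : P) (l : L), g • p ∈ g • l ↔ p ∈ l)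
    (faith : ∀ g : G, (∀ p : P, g • p = p) → g = 1)
    (h2t : ∀ x y x' y' : P, x ≠ y → x' ≠ y' → ∃ g : G, g • x = x' ∧ g • y = y')
    (hfl : ∀ (x : P) (m : L), x ∈ m → ∃ g : G, Cen L x g ∧ Axi (P := P) m g ∧ g ≠ 1) :
    H89.ON.Dat G P where
  N := EG hinc faith
  conj := by
    rintro g x n ⟨hn, m, hm, hnm⟩
    exact ⟨cen_conj g hn hinc, g • m, (hinc g x m).2 hm, axi_conj g hnm hinc⟩
  fix := fun x n hn => cen_fix L hinc hn.1
  comm := fun x a b ha hb => ela_comm hinc faith hfl ha hb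
  ne := by
    intro x y hxy
    obtain ⟨m, hxm, hym⟩ := exists_join (L := L) x y
    obtain ⟨g, h1, h2, h3⟩ := hfl x m hxm
    exact ⟨g, ⟨h1, m, hxm, h2⟩, h3, h2 y hym⟩
  faith := faith
  tt := h2t

theorem mem_L (hfl : ∀ (x : P) (m : L), x ∈ m → ∃ g : G, Cen L x g ∧ Axi (P := P) m g ∧ g ≠ 1)
    {x y z : P} {l : L} (hxy : x ≠ y) (hx : x ∈ l) (hy : y ∈ l) :
    z ∈ (dat hinc faith h2t hfl).L x y ↔ z ∈ l := by
  constructor
  · intro hz
    obtain ⟨g, h1, h2, h3⟩ := hfl x l hx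
    have h4 : g • z = z := hz g ((H89.ON.Dat.mem_W _).2 ⟨⟨h1, l, hx, h2⟩, h2 y hy⟩)
    by_contra hzl
    exact h3 (faith g (elation_fix hinc h1 hx h2 h4 hzl))
  · intro hz g hg
    obtain ⟨⟨hc, m, hxm, hm⟩, hgy⟩ := (H89.ON.Dat.mem_W _).1 hg
    by_cases hym : y ∈ m
    · have : m = l := line_eq hxy hxm hym hx hy
      exact hm z (this ▸ hz)
    · exact elation_fix hinc hc hxm hm hgy hym z

end act

universe u v

open Submodule in
/-- coordinates of an O'Nan configuration (extracted from `H89.ON.Dat.main`) -/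
theorem coords {G : Type u} {X : Type v} [Group G] [MulAction G X] [Finite G] [Finite X] (D : H89.ON.Dat G X)
    (hX : ∃ x y : X, x ≠ y) :
    ∃ (K : Type) (_ : Field K) (_ : Fintype K) (V : Type u) (_ : AddCommGroup V) (_ : Module K V)
      (_ : Module.Finite K V) (v : X → V), 3 ≤ Module.finrank K V ∧ (∀ x, v x ≠ 0) ∧
      (∀ w : V, w ≠ 0 → ∃ x, ∃ c : K, w = c • v x) ∧ (∀ x y, (∃ c : K, v x = c • v y) → x = y) ∧
      (∀ x y z : X, x ≠ y → (z ∈ D.L x y ↔ v z ∈ span K {v x, v y})) := by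
  classical
  obtain ⟨x0, y0, hxy0⟩ := hX
  obtain ⟨n0, hn0, hn01, hn0y⟩ := D.ne x0 y0 hxy0
  obtain ⟨H, hH, -⟩ := D.exists_hyp hn0 hn01
  obtain ⟨o, ho⟩ := D.exists_notMem_hyp hH
  obtain ⟨c0, hc0, -⟩ := D.two_points hH o
  have : Nonempty H := ⟨⟨c0, hc0⟩⟩
  obtain ⟨K, fK, ftK, mK, st, tr⟩ := (H89.ON.Dat.spr hH).exists_field
    (fun c => H89.ON.Dat.scal_tr hH c)
  have st' : ∀ (k : K) (b : H) (a : D.MA hH), a ∈ H89.ON.Dat.TA hH b →
    k • a ∈ H89.ON.Dat.TA hH b := st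
  have tr' : ∀ (b : H) (a : D.MA hH), a ∈ H89.ON.Dat.TA hH b → a ≠ 0 →
    ∀ a' ∈ H89.ON.Dat.TA hH b, ∃ k : K, k • a = a' := tr
  obtain ⟨v, hv1, hv2⟩ := H89.ON.Dat.exists_co (K := K) hH ho
  have hfinM : Module.Finite K (D.MA hH) := Module.Finite.of_finite
  have h3 : 3 ≤ Module.finrank K (D.MA hH × K) := by
    rw [Module.finrank_prod, Module.finrank_self]
    have := H89.ON.Dat.two_le_finrank st' tr' hv1
    omega
  exact ⟨K, fK, ftK, D.MA hH × K, inferInstance, inferInstance, inferInstance, v, h3,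
    H89.ON.Dat.co_ne ho st' tr' hv1 hv2, H89.ON.Dat.co_surj ho st' tr' hv1 hv2,
    H89.ON.Dat.co_inj ho st' tr' hv1 hv2, fun x y z hxy =>
    ⟨fun hz => H89.ON.Dat.span_of_mem ho st' tr' hv1 hv2 hxy hz,
      fun hz => H89.ON.Dat.mem_of_span ho st' tr' hv1 hv2 hxy hz⟩⟩

end H11.OW
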