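import Cfsg.Agent.Lib.H11.OW4c

set_option autoImplicit false
set_option linter.unusedSectionVars false

/-! S3732 (Ostrom-Wagner), piece T4, part d: the plane is Desarguesian. -/

namespace H11.OW

open Configuration Submodule

universe u v w

section final

variable {G : Type u} {P : Type v} {L : Type w} [Group G] [Finite G] [MulAction G P]
  [MulAction G L] [Membership P L] [Finite P] [Finite L] [ProjectivePlane P L]

/-- linear algebra: points and lines of a plane with coordinates -/
theorem of_coords {K : Type} [Field K] {V : Type u} [AddCommGroup V] [Module K V]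
    [Module.Finite K V] (v : P → V) (h3 : 3 ≤ Module.finrank K V) (hne : ∀ x, v x ≠ 0)
    (hsurj : ∀ w : V, w ≠ 0 → ∃ x, ∃ c : K, w = c • v x)
    (hinj : ∀ x y, (∃ c : K, v x = c • v y) → x = y)
    (hline : ∀ (x y z : P) (l : L), x ≠ y → x ∈ l → y ∈ l → (z ∈ l ↔ v z ∈ span K {v x, v y})) :
    ∃ φ : P ≃ Projectivization K (Fin 3 → K),
      (∀ l : L, ∃ W : Submodule K (Fin 3 → K), Module.finrank K W = 2 ∧
          ∀ p : P, p ∈ l ↔ (φ p).submodule ≤ W) ∧
      (∀ W : Submodule K (Fin 3 → K), Module.finrank K W = 2 →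
          ∃ l : L, ∀ p : P, p ∈ l ↔ (φ p).submodule ≤ W) := by
  classical
  -- the dimension is 3
  have hdim : Module.finrank K V = 3 := by
    refine le_antisymm ?_ h3
    by_contra h4
    push Not at h4
    obtain ⟨f, hf⟩ := exists_linearIndependent_of_le_finrank (R := K) (M := V) (n := 4) h4
    have hf0 : ∀ i, f i ≠ 0 := fun i => hf.ne_zero i
    choose x c hxc using fun i => hsurj (f i) (hf0 i)
    have hc : ∀ i, c i ≠ 0 := by
      intro i hi
      apply hf0 i
      rw [hxc i, hi, zero_smul]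
    have hv : ∀ i, v (x i) = (c i)⁻¹ • f i := by
      intro i
      rw [hxc i, smul_smul, inv_mul_cancel₀ (hc i), one_smul]
    have hxne : ∀ i j, i ≠ j → x i ≠ x j := by
      intro i j hij h
      have h1 : f i = (c i * (c j)⁻¹) • f j := by
        rw [mul_smul, ← hv j, ← h]; exact hxc i
      have h2 := (linearIndependent_iff_injective_finsuppLinearCombination.1 hf)
      have h3 : Finsupp.linearCombination K f (Finsupp.single i 1) =
          Finsupp.linearCombination K f (Finsupp.single j (c i * (c j)⁻¹)) := by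
        rw [Finsupp.linearCombination_single, Finsupp.linearCombination_single, one_smul]
        exact h1
      have h4 := h2 h3
      have h5 := DFunLike.congr_fun h4 i
      rw [Finsupp.single_eq_same, Finsupp.single_eq_of_ne (by
        intro h; exact hij (by first | exact h | exact h.symm))] at h5
      exact one_ne_zero h5
    obtain ⟨l, hl0, hl1⟩ := exists_join (L := L) (x 0) (x 1)
    obtain ⟨m, hm2, hm3⟩ := exists_join (L := L) (x 2) (x 3)
    obtain ⟨z, hzl, hzm⟩ := exists_meet (P := P) l m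
    have h1 := (hline (x 0) (x 1) z l (hxne 0 1 (by decide)) hl0 hl1).1 hzl
    have h2 := (hline (x 2) (x 3) z m (hxne 2 3 (by decide)) hm2 hm3).1 hzm
    obtain ⟨a, b, hab⟩ := mem_span_pair.1 h1
    obtain ⟨a', b', hab'⟩ := mem_span_pair.1 h2
    rw [hv, hv] at hab hab'
    have h5 : ∑ i : Fin 4, (![a * (c 0)⁻¹, b * (c 1)⁻¹, -(a' * (c 2)⁻¹), -(b' * (c 3)⁻¹)] i) • f i
        = 0 := by
      rw [Fin.sum_univ_four]
      simp only [Matrix.cons_val_zero, Matrix.cons_val_one, Matrix.cons_val]
      rw [neg_smul, neg_smul, mul_smul, mul_smul, mul_smul, mul_smul, hab, add_assoc, ← neg_add,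
        hab', add_neg_cancel]
    have h6 := Fintype.linearIndependent_iff.1 hf _ h5
    have h7 := h6 0
    have h8 := h6 1
    simp only [Matrix.cons_val_zero, Matrix.cons_val_one, Matrix.cons_val] at h7 h8
    apply hne z
    rw [← hab, ← mul_smul, ← mul_smul, h7, h8]
    simp
  have e : V ≃ₗ[K] (Fin 3 → K) := LinearEquiv.ofFinrankEq V (Fin 3 → K) (by simp [hdim])
  have hene : ∀ p, e (v p) ≠ 0 := fun p h => hne p (by simpa using h)
  have hbij : Function.Bijective
      (fun p => (Projectivization.mk K (e (v p)) (hene p) : Projectivization K (Fin 3 → K))) := by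
    constructor
    · intro p q hpq
      obtain ⟨a, ha⟩ := (Projectivization.mk_eq_mk_iff' K _ _ _ _).1 hpq
      refine hinj p q ⟨a, ?_⟩
      apply e.injective
      rw [map_smul, ha]
    · intro y
      induction y using Projectivization.ind with
      | h w hw =>
        have h1 : e.symm w ≠ 0 := fun h => hw (by simpa using h)
        obtain ⟨p, c, hp⟩ := hsurj _ h1
        have hc : c ≠ 0 := by
          rintro rfl
          exact h1 (by rw [hp, zero_smul])
        refine ⟨p, ?_⟩
        refine (Projectivization.mk_eq_mk_iff' K _ _ _ _).2 ⟨c⁻¹, ?_⟩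
        have h2 : w = c • e (v p) := by rw [← map_smul, ← hp, LinearEquiv.apply_symm_apply]
        rw [h2, smul_smul, inv_mul_cancel₀ hc, one_smul]
  let φ : P ≃ Projectivization K (Fin 3 → K) := Equiv.ofBijective _ hbij
  have hφ : ∀ p (W : Submodule K (Fin 3 → K)), (φ p).submodule ≤ W ↔ e (v p) ∈ W := by
    intro p W
    have h1 : φ p = Projectivization.mk K (e (v p)) (hene p) := rfl
    rw [h1, Projectivization.submodule_mk, span_singleton_le_iff_mem]
  -- the submodule of a pair of points
  have hpair : ∀ (x y : P) (l : L), x ≠ y → x ∈ l → y ∈ l →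
      (∀ p : P, p ∈ l ↔ (φ p).submodule ≤ span K {e (v x), e (v y)}) := by
    intro x y l hxy hx hy p
    rw [hφ, hline x y p l hxy hx hy]
    have h1 : span K {e (v x), e (v y)} = (span K {v x, v y}).map (e : V →ₗ[K] (Fin 3 → K)) := by
      rw [map_span]
      congr 1
      simp [Set.image_pair]
    rw [h1]
    constructor
    · intro h
      exact mem_map_of_mem h
    · rintro ⟨u, hu, hup⟩
      have : u = v p := e.injective hup
      rwa [← this]
  have hrk : ∀ x y : P, x ≠ y → Module.finrank K (span K {e (v x), e (v y)}) = 2 := by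
    intro x y hxy
    have h1 : LinearIndependent K ![e (v y), e (v x)] := by
      rw [LinearIndependent.pair_iff' (hene y)]
      intro a ha
      refine hxy (hinj x y ⟨a, ?_⟩)
      apply e.injective
      rw [map_smul, ha]
    have h2 := finrank_span_eq_card h1
    rw [Matrix.range_cons_cons_empty, Fintype.card_fin] at h2
    rw [Set.pair_comm]
    exact h2
  refine ⟨φ, ?_, ?_⟩
  · intro l
    obtain ⟨q, -⟩ := Nondegenerate.exists_point (P := P) l
    obtain ⟨x, hx, -⟩ := point3 (P := P) l q q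
    obtain ⟨y, hy, hyx, -⟩ := point3 (P := P) l x x
    exact ⟨_, hrk x y (Ne.symm hyx), hpair x y l (Ne.symm hyx) hx hy⟩
  · intro W hW
    -- two points with coordinates in W
    have hpt : ∀ w ∈ W, w ≠ 0 → ∃ (x : P) (c : K), w = c • e (v x) ∧ c ≠ 0 := by
      intro w hw hw0
      have h1 : e.symm w ≠ 0 := fun h => hw0 (by simpa using h)
      obtain ⟨p, c, hp⟩ := hsurj _ h1
      refine ⟨p, c, ?_, ?_⟩
      · rw [← map_smul, ← hp, LinearEquiv.apply_symm_apply]
      · rintro rfl
        exact h1 (by rw [hp, zero_smul])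
    have hW0 : W ≠ ⊥ := by
      rintro rfl
      rw [finrank_bot] at hW
      omega
    obtain ⟨w1, hw1, hw10⟩ := exists_mem_ne_zero_of_ne_bot hW0
    obtain ⟨x, c, hxc, hc⟩ := hpt w1 hw1 hw10
    have hxW : e (v x) ∈ W := by
      have : e (v x) = c⁻¹ • w1 := by rw [hxc, smul_smul, inv_mul_cancel₀ hc, one_smul]
      rw [this]; exact W.smul_mem _ hw1
    have h2 : ∃ w2 ∈ W, w2 ∉ span K {e (v x)} := by
      by_contra h
      push Not at h
      have h5 : W ≤ span K {e (v x)} := h
      have h6 := finrank_mono h5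
      rw [finrank_span_singleton (hene x), hW] at h6
      omega
    obtain ⟨w2, hw2, hw2n⟩ := h2
    have hw20 : w2 ≠ 0 := fun h => hw2n (h ▸ zero_mem _)
    obtain ⟨y, d, hyd, hd⟩ := hpt w2 hw2 hw20
    have hyW : e (v y) ∈ W := by
      have : e (v y) = d⁻¹ • w2 := by rw [hyd, smul_smul, inv_mul_cancel₀ hd, one_smul]
      rw [this]; exact W.smul_mem _ hw2
    have hxy : x ≠ y := by
      rintro rfl
      exact hw2n (mem_span_singleton.2 ⟨d, hyd.symm⟩)
    have h7 : span K {e (v x), e (v y)} = W := by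
      refine eq_of_le_of_finrank_eq ?_ ?_
      · rw [span_le]
        rintro u (rfl | rfl)
        · exact hxW
        · exact hyW
      · rw [hrk x y hxy, hW]
    obtain ⟨l, hl1, hl2⟩ := exists_join (L := L) x y
    refine ⟨l, fun p => ?_⟩
    rw [← h7]
    exact hpair x y l hxy hl1 hl2 p

/-- T4 -/
theorem main
    (hinc : ∀ (g : G) (p : P) (l : L), g • p ∈ g • l ↔ p ∈ l)
    (faith : ∀ g : G, (∀ p : P, g • p = p) → g = 1)
    (h2t : ∀ x y x' y' : P, x ≠ y → x' ≠ y' → ∃ g : G, g • x = x' ∧ g • y = y')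
    (hT3 : ∃ g : G, (∃ p : P, g • p ≠ p) ∧
      ((∃ a : L, ∀ p ∈ a, g • p = p) ∨ ∃ c : P, ∀ l : L, c ∈ l → g • l = l)) :
    ∃ (F : Type) (_ : Field F) (_ : Fintype F) (φ : P ≃ Projectivization F (Fin 3 → F)),
      (∀ l : L, ∃ W : Submodule F (Fin 3 → F), Module.finrank F W = 2 ∧
          ∀ p : P, p ∈ l ↔ (φ p).submodule ≤ W) ∧
      (∀ W : Submodule F (Fin 3 → F), Module.finrank F W = 2 →
          ∃ l : L, ∀ p : P, p ∈ l ↔ (φ p).submodule ≤ W) := by
  have hcen : ∃ (c : P) (g : G), Cen L c g ∧ g ≠ 1 := by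
    obtain ⟨g, ⟨p, hp⟩, h⟩ := hT3
    have hg : g ≠ 1 := by
      rintro rfl
      exact hp (one_smul G p)
    rcases h with ⟨a, ha⟩ | ⟨c, hc⟩
    · obtain ⟨c, hc⟩ := axi_cen (P := P) hinc (m := a) (g := g) ha
      exact ⟨c, g, hc, hg⟩
    · exact ⟨c, g, hc, hg⟩
  have hfl := flag_elation hinc h2t (exists_elation hinc faith h2t hcen)
  have hX : ∃ x y : P, x ≠ y := by
    obtain ⟨c, g, hc, hg⟩ := hcen
    obtain ⟨l, hl, -⟩ := exists_join (L := L) c c
    obtain ⟨y, -, hy, -⟩ := point3 l c c
    exact ⟨y, c, hy⟩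
  obtain ⟨K, fK, ftK, V, aV, mV, fV, v, h3, hne, hsurj, hinj, hline⟩ :=
    coords (dat hinc faith h2t hfl) hX
  obtain ⟨φ, h1, h2⟩ := of_coords (L := L) v h3 hne hsurj hinj (fun x y z l hxy hx hy => by
    rw [← hline x y z hxy, mem_L hinc faith h2t hfl hxy hx hy])
  exact ⟨K, fK, ftK, φ, h1, h2⟩

end final

end H11.OW
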