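import Cfsg.Agent.Lib.H11.OW4d

set_option autoImplicit false

namespace H11.OW

open Configuration

universe v w

section col

variable (P : Type v) (L : Type w) [Membership P L]

/-- the collineation group -/
def Col : Subgroup (Equiv.Perm P × Equiv.Perm L) where
  carrier := {g | ∀ (p : P) (l : L), g.1 p ∈ g.2 l ↔ p ∈ l}
  one_mem' := fun p l => Iff.rfl
  mul_mem' := by
    intro a b ha hb p l
    exact (ha _ _).trans (hb p l)
  inv_mem' := by
    intro a ha p l
    have := ha (a.1⁻¹ p) (a.2⁻¹ l)
    simpa using this.symm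

instance : MulAction (Col P L) P where
  smul g p := g.1.1 p
  one_smul _ := rfl
  mul_smul _ _ _ := rfl

instance : MulAction (Col P L) L where
  smul g l := g.1.2 l
  one_smul _ := rfl
  mul_smul _ _ _ := rfl

theorem Col.inc (g : Col P L) (p : P) (l : L) : g • p ∈ g • l ↔ p ∈ l := g.2 p l

variable [Finite P] [Finite L] [ProjectivePlane P L]

theorem Col.faith (g : Col P L) (h : ∀ p : P, g • p = p) : g = 1 := by
  refine Subtype.ext (Prod.ext (Equiv.ext fun p => h p) (Equiv.ext fun l => ?_))
  obtain ⟨q, -⟩ := Nondegenerate.exists_point (P := P) l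
  obtain ⟨x, hx, -⟩ := point3 (P := P) l q q
  obtain ⟨y, hy, hyx, -⟩ := point3 (P := P) l x x
  have hx' := (Col.inc P L g x l).2 hx
  have hy' := (Col.inc P L g y l).2 hy
  rw [h] at hx' hy'
  exact line_eq (Ne.symm hyx) hx' hy' hx hy

end col

end H11.OW
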