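import Mathlib
import Cfsg.Prelude.Def_SolvableStructure
import Cfsg.Agent.Lib.H1.Hall
import Cfsg.Agent.Lib.H11.CoprimeIndex
import Cfsg.Agent.Lib.H11.SubnormalMore

set_option autoImplicit false

/-!
Hall complement systems and system normalizers of finite solvable groups.
-/

namespace H11.SystemNormalizer

open Subgroup H11.CoprimeIndex H11.SubnormalJoin H11.SubnormalMore
open scoped Pointwise

universe u v

variable {G : Type u} [Group G]

theorem index_conj_smul (g : G) (H : Subgroup G) : (MulAut.conj g • H).index = H.index := by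
  exact Subgroup.index_map_equiv H (MulAut.conj g)

theorem conj_system {K : Nat.Primes → Subgroup G} (hK : Cfsg.IsComplementSystem K) (g : G) :
    Cfsg.IsComplementSystem (fun p => MulAut.conj g • K p) := by
  intro p
  rw [index_conj_smul]; exact hK p

theorem index_coprime {K : Nat.Primes → Subgroup G} (hK : Cfsg.IsComplementSystem K)
    {p q : Nat.Primes} (hpq : p ≠ q) : (K p).index.Coprime (K q).index := by
  rw [hK p, hK q]
  apply Nat.Coprime.pow
  rw [Nat.coprime_primes p.2 q.2]
  intro h; exact hpq (Subtype.ext h)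

theorem relIndex_coprime [Finite G] {K : Nat.Primes → Subgroup G} (hK : Cfsg.IsComplementSystem K)
    (N : Subgroup G) [N.Normal] {p q : Nat.Primes} (hpq : p ≠ q) :
    ((K p).relIndex N).Coprime ((K q).relIndex N) := by
  have h1 : ∀ p, (K p).relIndex N ∣ (K p).index := by
    intro p
    rw [relIndex_sup_of_normal]
    exact Subgroup.relIndex_dvd_index_of_le le_sup_left
  exact Nat.Coprime.coprime_dvd_left (h1 p) (Nat.Coprime.coprime_dvd_right (h1 q) (index_coprime hK hpq))

/-- the order of a complement is prime to `p` -/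
theorem card_coprime [Finite G] {K : Nat.Primes → Subgroup G} (hK : Cfsg.IsComplementSystem K)
    (p : Nat.Primes) : (Nat.card (K p)).Coprime p := by
  rw [Nat.coprime_comm, Nat.Prime.coprime_iff_not_dvd p.2]
  intro hd
  have h1 := Subgroup.card_mul_index (K p)
  rw [hK p] at h1
  have h2 : (p : ℕ) ^ ((Nat.card G).factorization p + 1) ∣ Nat.card G := by
    have h4 : Nat.card G = Nat.card (K p) * (p : ℕ) ^ (Nat.card G).factorization p := h1.symm
    rw [pow_succ, mul_comm]
    nth_rewrite 2 [h4]
    exact Nat.mul_dvd_mul_right hd _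
  have h3 := (Nat.Prime.pow_dvd_iff_le_factorization p.2 Nat.card_pos.ne').mp h2
  omega

theorem conj_single [Finite G] (hs : Group.IsSolvable G) {K L : Nat.Primes → Subgroup G}
    (hK : Cfsg.IsComplementSystem K) (hL : Cfsg.IsComplementSystem L) (N : Subgroup G) [N.Normal]
    (hKL : ∀ p, K p ⊔ N = L p ⊔ N) (p : Nat.Primes) : ∃ n ∈ N, MulAut.conj n • K p = L p := by
  set M := K p ⊔ N with hM
  have hKM : K p ≤ M := le_sup_left
  have hLM : L p ≤ M := by rw [hM, hKL p]; exact le_sup_left
  have hcK : Nat.card ((K p).subgroupOf M) = Nat.card (K p) :=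
    Nat.card_congr (subgroupOfEquivOfLe hKM).toEquiv
  have hcL : Nat.card ((L p).subgroupOf M) = Nat.card (L p) :=
    Nat.card_congr (subgroupOfEquivOfLe hLM).toEquiv
  have hKLc : Nat.card (L p) = Nat.card (K p) := by
    have h1 := Subgroup.card_mul_index (K p)
    have h2 := Subgroup.card_mul_index (L p)
    rw [hK p] at h1; rw [hL p] at h2
    exact Nat.eq_of_mul_eq_mul_right (pow_pos p.2.pos _) (h2.trans h1.symm)
  have hidx : (K p).relIndex M ∣ (p : ℕ) ^ (Nat.card G).factorization p := by
    rw [← hK p]; exact Subgroup.relIndex_dvd_index_of_le hKM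
  have hcop : (Nat.card (K p)).Coprime ((K p).relIndex M) :=
    Nat.Coprime.coprime_dvd_right hidx (Nat.Coprime.pow_right _ (card_coprime hK p))
  have hMs : Group.IsSolvable M := inferInstance
  obtain ⟨g, hg⟩ := H1.Hall.conj_of_card_eq hMs (Nat.card (K p)) ((K p).relIndex M)
    (by
      have := Subgroup.card_mul_index ((K p).subgroupOf M)
      rw [hcK] at this
      exact this.symm) hcop ((K p).subgroupOf M) ((L p).subgroupOf M) hcK (hcL.trans hKLc)
  have hg' : MulAut.conj (g : G) • K p = L p := by
    rw [Subgroup.conj_smul_subgroupOf hKM g] at hg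
    have := congrArg (Subgroup.map M.subtype) hg
    rw [subgroupOf_map_subtype, subgroupOf_map_subtype,
      inf_eq_left.mpr (Subgroup.conj_smul_le_of_le hKM g), inf_eq_left.mpr hLM] at this
    exact this
  have hgM : (g : G) ∈ N ⊔ K p := by rw [sup_comm]; exact g.2
  obtain ⟨n, hn, k, hk, hnk⟩ := Subgroup.mem_sup_of_normal_left.mp hgM
  refine ⟨n, hn, ?_⟩
  rw [← hg', ← hnk, map_mul, mul_smul, mem_normalizer_iff_conj.mp (Subgroup.le_normalizer hk)]

theorem conj_finset [Finite G] (hs : Group.IsSolvable G) (N : Subgroup G) [N.Normal]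
    (s : Finset Nat.Primes) (K L : Nat.Primes → Subgroup G)
    (hK : Cfsg.IsComplementSystem K) (hL : Cfsg.IsComplementSystem L)
    (hKL : ∀ p, K p ⊔ N = L p ⊔ N) : ∃ n ∈ N, ∀ p ∈ s, MulAut.conj n • K p = L p := by
  classical
  induction s using Finset.induction_on with
  | empty => exact ⟨1, one_mem _, by simp⟩
  | insert q s hq ih =>
    obtain ⟨n, hn, hns⟩ := ih
    set K' : Nat.Primes → Subgroup G := fun p => MulAut.conj n • K p with hK'
    have hK's : Cfsg.IsComplementSystem K' := conj_system hK n
    have hK'L : ∀ p, K' p ⊔ N = L p ⊔ N := by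
      intro p
      have h1 : MulAut.conj n • (K p ⊔ N) = K p ⊔ N :=
        mem_normalizer_iff_conj.mp (Subgroup.le_normalizer (mem_sup_right hn))
      have h2 : MulAut.conj n • N = N := mem_normalizer_iff_conj.mp (Subgroup.le_normalizer hn)
      rw [Subgroup.smul_sup, h2] at h1
      rw [← hKL p]; exact h1
    obtain ⟨m, hm, hmq⟩ := conj_single hs hK's hL N hK'L q
    -- factorization inside N
    have hcop : ((⨅ p ∈ s, (K' p).subgroupOf N) : Subgroup N).index.Coprime
        ((K' q).subgroupOf N).index := by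
      rw [index_iInf_finset s (fun p => (K' p).subgroupOf N)
        (fun i _ j _ hij => relIndex_coprime hK's N hij)]
      apply Nat.Coprime.prod_left
      intro i hi
      exact relIndex_coprime hK's N (fun h => hq (h ▸ hi))
    obtain ⟨d, hd, k, hk, hdk⟩ := exists_mul_of_coprime _ _ hcop ⟨m, hm⟩
    have hdk' : m = (d : G) * (k : G) := congrArg Subtype.val hdk
    have hd' : ∀ p ∈ s, (d : G) ∈ K' p := by
      intro p hp
      rw [Subgroup.mem_iInf] at hd
      have := hd p
      rw [Subgroup.mem_iInf] at this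
      exact mem_subgroupOf.mp (this hp)
    have hk' : (k : G) ∈ K' q := mem_subgroupOf.mp hk
    refine ⟨(d : G) * n, mul_mem d.2 hn, ?_⟩
    intro p hp
    rw [map_mul, mul_smul]
    rcases Finset.mem_insert.mp hp with rfl | hp
    · rw [← hmq, hdk', map_mul, mul_smul, mem_normalizer_iff_conj.mp (Subgroup.le_normalizer hk')]
    · rw [← hns p hp]
      exact mem_normalizer_iff_conj.mp (Subgroup.le_normalizer (hd' p hp))

theorem conj_of_sup_eq [Finite G] (hs : Group.IsSolvable G) (N : Subgroup G) [N.Normal]
    (K L : Nat.Primes → Subgroup G)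
    (hK : Cfsg.IsComplementSystem K) (hL : Cfsg.IsComplementSystem L)
    (hKL : ∀ p, K p ⊔ N = L p ⊔ N) : ∃ n ∈ N, ∀ p, MulAut.conj n • K p = L p := by
  obtain ⟨n, hn, hns⟩ := conj_finset hs N
    ((Nat.card G).primeFactors.subtype Nat.Prime) K L hK hL hKL
  refine ⟨n, hn, fun p => ?_⟩
  by_cases hp : (p : ℕ) ∣ Nat.card G
  · apply hns
    exact Finset.mem_subtype.mpr (Nat.mem_primeFactors.mpr ⟨p.2, hp, Nat.card_pos.ne'⟩)
  · have h1 : ∀ K : Nat.Primes → Subgroup G, Cfsg.IsComplementSystem K → K p = ⊤ := by
      intro K hK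
      have := hK p
      rw [Nat.factorization_eq_zero_of_not_dvd hp, pow_zero] at this
      exact Subgroup.index_eq_one.mp this
    have h2 := h1 _ (conj_system hK n)
    rw [h1 L hL]
    exact h2

theorem conj_systems [Finite G] (hs : Group.IsSolvable G) (K L : Nat.Primes → Subgroup G)
    (hK : Cfsg.IsComplementSystem K) (hL : Cfsg.IsComplementSystem L) :
    ∃ g : G, ∀ p, MulAut.conj g • K p = L p := by
  obtain ⟨n, -, h⟩ := conj_of_sup_eq hs ⊤ K L hK hL (fun p => by simp)
  exact ⟨n, h⟩

theorem isNilpotent_systemNormalizer [Finite G] (K : Nat.Primes → Subgroup G)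
    (hK : Cfsg.IsComplementSystem K) : Group.IsNilpotent (Cfsg.systemNormalizer K) := by
  set D := Cfsg.systemNormalizer K with hD
  have hDn : ∀ p, D ≤ normalizer (K p : Set G) := fun p => iInf_le _ p
  have hnor : ∀ p, ((K p).subgroupOf D).Normal := by
    intro p
    constructor
    intro x hx g
    rw [mem_subgroupOf] at hx ⊢
    exact (Subgroup.mem_normalizer_iff.mp (hDn p g.2) _).mp hx
  -- the quotient is a p-group
  have hidx : ∀ p : Nat.Primes, ∃ k, ((K p).subgroupOf D).index = (p : ℕ) ^ k := by
    intro p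
    -- D acts in N = normalizer (K p)
    set M := normalizer (K p : Set G) with hM
    have h1 : ((K p).subgroupOf M).relIndex (D.subgroupOf M) = (K p).relIndex D :=
      Subgroup.relIndex_subgroupOf (hDn p)
    have h2 : ((K p).subgroupOf M).relIndex (D.subgroupOf M) ∣ ((K p).subgroupOf M).index := by
      have : ((K p).subgroupOf M).Normal := Subgroup.normal_in_normalizer
      exact Subgroup.relIndex_dvd_index_of_normal _ _
    have h3 : ((K p).subgroupOf M).index ∣ (K p).index :=
      Subgroup.relIndex_dvd_index_of_le Subgroup.le_normalizer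
    have h4 : (K p).relIndex D ∣ (p : ℕ) ^ (Nat.card G).factorization p := by
      rw [← hK p, ← h1]; exact h2.trans h3
    obtain ⟨k, -, hk⟩ := (Nat.dvd_prime_pow p.2).mp h4
    exact ⟨k, hk⟩
  let ι := {p : Nat.Primes // (p : ℕ) ∈ (Nat.card G).primeFactors}
  have : Finite ι := by
    apply Finite.of_injective (β := (Nat.card G).primeFactors) (fun p => ⟨(p.1 : ℕ), p.2⟩)
    intro a b hab
    apply Subtype.ext; apply Subtype.ext
    exact congrArg (fun x : (Nat.card G).primeFactors => (x : ℕ)) hab
  have hnil : ∀ p : ι, Group.IsNilpotent (D ⧸ (K p.1).subgroupOf D) := by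
    intro p
    obtain ⟨k, hk⟩ := hidx p.1
    have : Fact (Nat.Prime (p.1 : ℕ)) := ⟨p.1.2⟩
    exact (IsPGroup.of_card (p := (p.1 : ℕ)) (n := k) hk).isNilpotent
  let f : D →* (∀ p : ι, D ⧸ (K p.1).subgroupOf D) :=
    MonoidHom.pi (fun p => QuotientGroup.mk' ((K p.1).subgroupOf D))
  have hker : f.ker ≤ center D := by
    intro x hx
    have hx1 : ∀ p : ι, (x : G) ∈ K p.1 := by
      intro p
      have h1 : f x = 1 := MonoidHom.mem_ker.mp hx
      have h2 : QuotientGroup.mk' ((K p.1).subgroupOf D) x = 1 := congrFun h1 p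
      rw [← MonoidHom.mem_ker, QuotientGroup.ker_mk'] at h2
      exact mem_subgroupOf.mp h2
    have hx2 : orderOf (x : G) = 1 := by
      by_contra hne
      obtain ⟨q, hq, hqd⟩ := Nat.exists_prime_and_dvd hne
      have hqG : q ∣ Nat.card G := hqd.trans (orderOf_dvd_natCard _)
      let p : ι := ⟨⟨q, hq⟩, Nat.mem_primeFactors.mpr ⟨hq, hqG, Nat.card_pos.ne'⟩⟩
      have h3 : q ∣ Nat.card (K p.1) := by
        refine hqd.trans ?_
        have := orderOf_dvd_natCard (⟨(x : G), hx1 p⟩ : K p.1)
        rwa [← Subgroup.orderOf_coe] at this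
      have h4 := card_coprime hK p.1
      exact (Nat.Prime.coprime_iff_not_dvd hq).mp (Nat.coprime_comm.mp h4) h3
    have hx3 : (x : G) = 1 := orderOf_eq_one_iff.mp hx2
    have : x = 1 := Subtype.ext hx3
    rw [this]; exact one_mem _
  exact Subgroup.isNilpotent_of_ker_le_center f hker

theorem map_system [Finite G] (K : Nat.Primes → Subgroup G)
    (hK : Cfsg.IsComplementSystem K) (N : Subgroup G) [N.Normal] :
    Cfsg.IsComplementSystem (fun p => (K p).map (QuotientGroup.mk' N)) := by
  intro p
  set f := QuotientGroup.mk' N with hf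
  have hfs : Function.Surjective f := QuotientGroup.mk'_surjective N
  have h1 : ((K p).map f).index ∣ (p : ℕ) ^ (Nat.card G).factorization p := by
    rw [← hK p]; exact Subgroup.index_map_dvd _ hfs
  obtain ⟨k, -, hk⟩ := (Nat.dvd_prime_pow p.2).mp h1
  have h2 : Nat.card ((K p).map f) ∣ Nat.card (K p) := Subgroup.card_map_dvd _ _
  have h3 : (Nat.card ((K p).map f)).Coprime p := Nat.Coprime.coprime_dvd_left h2 (card_coprime hK p)
  have h4 := Subgroup.card_mul_index ((K p).map f)
  have h5 : (Nat.card (G ⧸ N)).factorization p = k := by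
    rw [← h4, hk, Nat.factorization_mul Nat.card_pos.ne' (pow_pos p.2.pos _).ne', Finsupp.add_apply,
      Nat.factorization_eq_zero_of_not_dvd ((Nat.Prime.coprime_iff_not_dvd p.2).mp h3.symm),
      p.2.factorization_pow]
    simp
  rw [hk, h5]

theorem systemNormalizer_map [Finite G] (hs : Group.IsSolvable G) (K : Nat.Primes → Subgroup G)
    (hK : Cfsg.IsComplementSystem K) (N : Subgroup G) [N.Normal] :
    Cfsg.systemNormalizer (fun p => (K p).map (QuotientGroup.mk' N)) =
      (Cfsg.systemNormalizer K).map (QuotientGroup.mk' N) := by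
  set f := QuotientGroup.mk' N with hf
  have hfs : Function.Surjective f := QuotientGroup.mk'_surjective N
  apply le_antisymm
  · intro x hx
    obtain ⟨t, rfl⟩ := hfs x
    have h1 : ∀ p, K p ⊔ N = (MulAut.conj t • K p) ⊔ N := by
      intro p
      have h2 : f t ∈ normalizer (((K p).map f : Subgroup (G ⧸ N)) : Set (G ⧸ N)) :=
        (Subgroup.mem_iInf.mp hx) p
      rw [mem_normalizer_iff_conj] at h2
      have h3 : MulAut.conj (f t) • (K p).map f = (MulAut.conj t • K p).map f := by
        ext y
        constructor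
        · intro hy
          rw [Subgroup.mem_pointwise_smul_iff_inv_smul_mem] at hy
          obtain ⟨k, hk, hky⟩ := hy
          refine ⟨t * k * t⁻¹, ?_, ?_⟩
          · rw [SetLike.mem_coe, Subgroup.mem_pointwise_smul_iff_inv_smul_mem]
            simpa [MulAut.smul_def, mul_assoc] using hk
          · rw [map_mul, map_mul, hky, map_inv, ← map_inv MulAut.conj, MulAut.smul_def, MulAut.conj_apply]
            group
        · rintro ⟨z, hz, rfl⟩
          rw [SetLike.mem_coe, Subgroup.mem_pointwise_smul_iff_inv_smul_mem] at hz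
          rw [Subgroup.mem_pointwise_smul_iff_inv_smul_mem]
          refine ⟨_, hz, ?_⟩
          rw [← map_inv MulAut.conj, ← map_inv MulAut.conj, MulAut.smul_def, MulAut.smul_def,
            MulAut.conj_apply, MulAut.conj_apply]
          simp
      rw [h3] at h2
      have h4 := congrArg (Subgroup.comap f) h2
      rw [Subgroup.comap_map_eq, Subgroup.comap_map_eq, QuotientGroup.ker_mk'] at h4
      exact h4.symm
    obtain ⟨n, hn, hnK⟩ := conj_of_sup_eq hs N K _ hK (conj_system hK t) h1
    refine ⟨n⁻¹ * t, ?_, ?_⟩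
    · change n⁻¹ * t ∈ Cfsg.systemNormalizer K
      rw [Cfsg.systemNormalizer, Subgroup.mem_iInf]
      intro p
      rw [mem_normalizer_iff_conj, map_mul, mul_smul, ← hnK p, ← mul_smul, ← map_mul, inv_mul_cancel,
        map_one, one_smul]
    · rw [map_mul, map_inv]
      have : f n = 1 := by rw [← MonoidHom.mem_ker, hf, QuotientGroup.ker_mk']; exact hn
      rw [this]; simp
  · rw [Subgroup.map_le_iff_le_comap]
    intro x hx
    rw [Subgroup.mem_comap]
    rw [Cfsg.systemNormalizer, Subgroup.mem_iInf]
    intro p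
    have h1 : x ∈ normalizer (K p : Set G) := (Subgroup.mem_iInf.mp hx) p
    exact Subgroup.le_normalizer_map f (Subgroup.mem_map_of_mem f h1)

theorem normalClosure_systemNormalizer [Finite G] (hs : Group.IsSolvable G)
    (K : Nat.Primes → Subgroup G) (hK : Cfsg.IsComplementSystem K) :
    Subgroup.normalClosure ((Cfsg.systemNormalizer K : Subgroup G) : Set G) = ⊤ := by
  set M := normalClosure ((Cfsg.systemNormalizer K : Subgroup G) : Set G) with hM
  set N := M ⊔ _root_.commutator G with hN
  have hNtop : N = ⊤ := by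
    have h1 := systemNormalizer_map hs K hK N
    have h2 : (Cfsg.systemNormalizer K).map (QuotientGroup.mk' N) = ⊥ := by
      rw [Subgroup.map_eq_bot_iff, QuotientGroup.ker_mk']
      exact le_normalClosure.trans le_sup_left
    have hcomm : ∀ a b : G ⧸ N, a * b = b * a := by
      intro a b
      obtain ⟨x, rfl⟩ := QuotientGroup.mk'_surjective N a
      obtain ⟨y, rfl⟩ := QuotientGroup.mk'_surjective N b
      rw [← map_mul, ← map_mul]
      rw [QuotientGroup.mk'_apply, QuotientGroup.mk'_apply, QuotientGroup.eq]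
      have h3 : (x * y)⁻¹ * (y * x) = y⁻¹ * x⁻¹ * (y⁻¹)⁻¹ * (x⁻¹)⁻¹ := by group
      rw [h3]
      apply Subgroup.mem_sup_right
      exact Subgroup.commutator_mem_commutator (Subgroup.mem_top y⁻¹) (Subgroup.mem_top x⁻¹)
    have h4 : Cfsg.systemNormalizer (fun p => (K p).map (QuotientGroup.mk' N)) = ⊤ := by
      rw [eq_top_iff]
      refine le_iInf fun p => ?_
      intro x _
      rw [Subgroup.mem_normalizer_iff]
      intro y
      rw [hcomm x y]; simp
    rw [h4, h2] at h1
    rw [eq_top_iff]
    intro g _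
    have h5 : QuotientGroup.mk' N g ∈ (⊥ : Subgroup (G ⧸ N)) := h1 ▸ Subgroup.mem_top _
    rw [Subgroup.mem_bot, ← MonoidHom.mem_ker, QuotientGroup.ker_mk'] at h5
    exact h5
  by_contra hMt
  have hnt : Nontrivial (G ⧸ M) := by
    rw [← not_subsingleton_iff_nontrivial]
    intro h
    exact hMt (QuotientGroup.subgroup_eq_top_of_subsingleton M h)
  have hsM : Group.IsSolvable (G ⧸ M) := inferInstance
  have h6 := Group.IsSolvable.commutator_lt_top_of_nontrivial (G ⧸ M)
  have h7 : (_root_.commutator (G ⧸ M)) = ⊤ := by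
    have h8 : (_root_.commutator G).map (QuotientGroup.mk' M) = _root_.commutator (G ⧸ M) := by
      rw [_root_.commutator_def, _root_.commutator_def, Subgroup.map_commutator,
        Subgroup.map_top_of_surjective _ (QuotientGroup.mk'_surjective M)]
    rw [← h8, eq_top_iff]
    intro x _
    obtain ⟨g, rfl⟩ := QuotientGroup.mk'_surjective M x
    have hg : g ∈ M ⊔ _root_.commutator G := by rw [← hN, hNtop]; trivial
    obtain ⟨m, hm, c, hc, rfl⟩ := Subgroup.mem_sup_of_normal_left.mp hg
    refine ⟨c, hc, ?_⟩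
    rw [map_mul]
    have : QuotientGroup.mk' M m = 1 := by rw [← MonoidHom.mem_ker, QuotientGroup.ker_mk']; exact hm
    rw [this, one_mul]
  exact h6.ne h7

end H11.SystemNormalizer
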