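import Mathlib
import Cfsg.Prelude
import Cfsg.Agent.Lib.H11.InvSub
import Cfsg.Agent.Lib.H27.GenSub
import Cfsg.Agent.Lib.H76.PG

/-!
Thompson's transitivity theorem for groups of odd order with solvable `p`-local subgroups.
-/

set_option autoImplicit false
set_option linter.unusedSectionVars false
set_option linter.unusedVariables false

namespace H11.Transitivity

open Subgroup Cfsg H1.Coprime H11.InvSub
open scoped commutatorElement Pointwise

universe u

/-- The standing hypotheses. -/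
structure Hyp {G : Type u} [Group G] (p : ℕ) (P : Sylow p G) (A : Subgroup G) : Prop where
  odd : Odd (Nat.card G)
  loc : ∀ T : Subgroup G, IsPGroup p T → T ≠ ⊥ → Group.IsSolvable (normalizer (T : Set G))
  le : A ≤ (P : Subgroup G)
  norm : (P : Subgroup G) ≤ normalizer (A : Set G)
  comm : ∀ a ∈ A, ∀ b ∈ A, a * b = b * a
  self : (P : Subgroup G) ⊓ centralizer (A : Set G) ≤ A

variable {G : Type u} [Group G] [Finite G] {p : ℕ} [hp : Fact p.Prime] {P : Sylow p G} {A : Subgroup G}

theorem Hyp.isPGroup (h : Hyp p P A) : IsPGroup p A := P.2.to_le h.le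

theorem isPGroup_zpowers (h : Hyp p P A) {x : G} (hx : x ∈ P) : IsPGroup p (zpowers x) :=
  P.2.to_le (by rw [zpowers_le]; exact hx)

theorem isSolvable_centralizer (h : Hyp p P A) {x : G} (hx : x ∈ P) (hx1 : x ≠ 1) :
    Group.IsSolvable (centralizer ({x} : Set G)) := by
  have h1 := h.loc (zpowers x) (isPGroup_zpowers h hx) (by rwa [Ne, zpowers_eq_bot])
  have h2 : centralizer ({x} : Set G) ≤ normalizer ((zpowers x : Subgroup G) : Set G) := by
    refine le_trans ?_ (centralizer_le_normalizer _)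
    intro g hg
    rw [mem_centralizer_iff]
    rintro _ ⟨j, rfl⟩
    have : Commute x g := (mem_centralizer_singleton_iff.mp hg).symm
    exact (this.zpow_left j).eq
  exact Group.isSolvable_of_isSolvable_injective (Subgroup.inclusion_injective h2)

theorem le_centralizer (h : Hyp p P A) {x : G} (hx : x ∈ A) : A ≤ centralizer ({x} : Set G) :=
  fun a ha => mem_centralizer_singleton_iff.mpr (h.comm a ha x hx)

/-- the case of a central element of `P` -/
theorem le_core_of_center (h : Hyp p P A) {z : G} (hz : z ∈ A) (hz1 : z ≠ 1)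
    (hzc : ∀ x ∈ P, x * z = z * x) {T : Subgroup G} (hTz : T ≤ centralizer {z})
    (hT : (Nat.card T).Coprime p) (hAT : A ≤ normalizer (T : Set G)) :
    T ≤ core p (centralizer ({z} : Set G)) := by
  set H := centralizer ({z} : Set G) with hH
  have hPH : (P : Subgroup G) ≤ H := fun x hx => mem_centralizer_singleton_iff.mpr (hzc x hx)
  rw [le_core_iff hTz]
  refine le_pPrimeCore_of_sylow (isSolvable_centralizer h (h.le hz) hz1) p (P.subtype hPH) (A.subgroupOf H)
    (T.subgroupOf H) ?_ ?_ ?_ ?_ ?_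
  · intro x hx
    exact h.le hx
  · intro x hx
    have h1 : (x : G) ∈ normalizer (A : Set G) := h.norm hx
    rw [mem_normalizer_iff] at h1 ⊢
    intro y
    exact h1 y
  · rintro x hx
    rw [mem_inf] at hx
    have h1 : (x : G) ∈ (P : Subgroup G) := hx.1
    apply h.self
    refine mem_inf.mpr ⟨h1, ?_⟩
    rw [mem_centralizer_iff]
    intro a ha
    exact congrArg Subtype.val (mem_centralizer_iff.mp hx.2 ⟨a, hPH (h.le ha)⟩ ha)
  · rw [Nat.card_congr (T.subgroupOfEquivOfLe hTz).toEquiv]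
    exact hT
  · intro x hx
    have h1 : (x : G) ∈ normalizer (T : Set G) := hAT hx
    rw [mem_normalizer_iff] at h1 ⊢
    intro y
    exact h1 y

/-- the case of an element of `A` centralized by a subgroup of index `p` of `P` -/
theorem le_core_of_index (h : Hyp p P A) (hp2 : p ≠ 2) {z : G} (hz : z ∈ A) (hz1 : z ≠ 1)
    (hzc : ∀ x ∈ P, x * z = z * x) {y : G} (hy : y ∈ A) (hy1 : y ≠ 1)
    (hidx : Nat.card P ≤ p * Nat.card ((P : Subgroup G) ⊓ centralizer {y} : Subgroup G))
    {T : Subgroup G} (hTy : T ≤ centralizer {y}) (hT : (Nat.card T).Coprime p)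
    (hAT : A ≤ normalizer (T : Set G)) : T ≤ core p (centralizer ({y} : Set G)) := by
  set L := centralizer ({y} : Set G) with hL
  have hLs : Group.IsSolvable L := isSolvable_centralizer h (h.le hy) hy1
  have hAL : A ≤ L := le_centralizer h hy
  set P1 : Subgroup L := (P : Subgroup G).subgroupOf L with hP1
  have hP1card : Nat.card P1 = Nat.card ((P : Subgroup G) ⊓ L : Subgroup G) := by
    rw [hP1, ← Subgroup.inf_subgroupOf_right]
    exact Nat.card_congr (Subgroup.subgroupOfEquivOfLe inf_le_right).toEquiv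
  have hP1p : IsPGroup p P1 := P.2.comap_subtype
  obtain ⟨P2, hP2⟩ := hP1p.exists_le_sylow
  have hAP1 : A.subgroupOf L ≤ P1 := fun x hx => h.le hx
  have hAn : P1 ≤ normalizer ((A.subgroupOf L : Subgroup L) : Set L) := by
    intro x hx
    have h1 : (x : G) ∈ normalizer (A : Set G) := h.norm hx
    rw [mem_normalizer_iff] at h1 ⊢
    intro y
    exact h1 y
  have hTL : (Nat.card (T.subgroupOf L)).Coprime p := by
    rw [Nat.card_congr (T.subgroupOfEquivOfLe hTy).toEquiv]
    exact hT
  have hATL : A.subgroupOf L ≤ normalizer ((T.subgroupOf L : Subgroup L) : Set L) := by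
    intro x hx
    have h1 : (x : G) ∈ normalizer (T : Set G) := hAT hx
    rw [mem_normalizer_iff] at h1 ⊢
    intro y
    exact h1 y
  rw [le_core_iff hTy]
  by_cases heq : P1 = P2
  · refine le_pPrimeCore_of_sylow hLs p P2 (A.subgroupOf L) (T.subgroupOf L) (heq ▸ hAP1) (heq ▸ hAn) ?_ hTL hATL
    rintro x hx
    rw [mem_inf, ← heq] at hx
    have h1 : (x : G) ∈ (P : Subgroup G) := hx.1
    apply h.self
    refine mem_inf.mpr ⟨h1, ?_⟩
    rw [mem_centralizer_iff]
    intro a ha
    exact congrArg Subtype.val (mem_centralizer_iff.mp hx.2 ⟨a, hAL ha⟩ ha)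
  · -- `P1` has index `p` in `P2`
    have hcardP2 : Nat.card P2 ∣ Nat.card P := by
      have h1 : IsPGroup p ((P2 : Subgroup L).map L.subtype) := P2.2.map _
      obtain ⟨P3, hP3⟩ := h1.exists_le_sylow
      have h2 := Subgroup.card_dvd_of_le hP3
      rw [Subgroup.card_map_of_injective L.subtype_injective] at h2
      rwa [Nat.card_congr (P3.equiv P).toEquiv] at h2
    have hlt : P1 < P2 := lt_of_le_of_ne hP2 heq
    obtain ⟨a, ha⟩ := IsPGroup.iff_card.mp hP1p
    obtain ⟨b, hb⟩ := IsPGroup.iff_card.mp P2.2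
    have hcl : Nat.card P1 < Nat.card P2 := by
      apply lt_of_le_of_ne (Subgroup.card_le_of_le hP2)
      intro h1
      exact heq (Subgroup.eq_of_le_of_card_ge hP2 h1.ge)
    have hab : b = a + 1 := by
      have h1 : Nat.card P2 ≤ p * Nat.card P1 := by
        rw [hP1card]
        exact (Nat.le_of_dvd Nat.card_pos hcardP2).trans hidx
      rw [ha, hb, ← pow_succ'] at h1
      rw [ha, hb] at hcl
      have h2 := (Nat.pow_le_pow_iff_right hp.out.one_lt).mp h1
      have h3 := (Nat.pow_lt_pow_iff_right hp.out.one_lt).mp hcl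
      omega
    have hn : (P2 : Subgroup L) ≤ normalizer (P1 : Set L) := by
      have h1 : (P1.subgroupOf (P2 : Subgroup L)).index = p := by
        have h2 := Subgroup.card_mul_index (P1.subgroupOf (P2 : Subgroup L))
        rw [Nat.card_congr (Subgroup.subgroupOfEquivOfLe hP2).toEquiv, ha, hb, hab, pow_succ] at h2
        exact Nat.eq_of_mul_eq_mul_left (pow_pos hp.out.pos _) h2
      have h2 : (P1.subgroupOf (P2 : Subgroup L)).Normal := by
        apply Subgroup.normal_of_index_eq_minFac_card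
        rw [h1, hb, hab, hp.out.pow_minFac (by omega)]
      exact (Subgroup.normal_subgroupOf_iff_le_normalizer hP2).mp h2
    have hzL : z ∈ L := hAL hz
    refine le_pPrimeCore_of_quadratic hLs (h.odd.of_dvd_nat (Subgroup.card_subgroup_dvd_card L)) p hp2 P2 P1 hn
      ⟨z, hzL⟩ (h.le hz) ?_ ?_ (T.subgroupOf L) hTL (hATL hz) ?_
    · intro x hx
      exact Subtype.ext (hzc x hx)
    · apply hP1p.to_le
      rw [zpowers_le]
      exact h.le hz
    · -- `C_T(z)`
      have h1 : T ⊓ centralizer {z} ≤ core p (centralizer ({z} : Set G)) := by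
        refine le_core_of_center h hz hz1 hzc inf_le_right
          (Nat.Coprime.coprime_dvd_left (Subgroup.card_dvd_of_le inf_le_left) hT) ?_
        refine H1.Coprime2.le_normalizer_inf hAT ?_
        exact (le_centralizer h hz).trans le_normalizer
      have h2 := core_inf_le (p := p) y z (h.comm y hy z hz) (isPGroup_zpowers h (h.le hz)) hLs
      have h3 : T ⊓ centralizer {z} ≤ core p L :=
        (le_inf h1 (inf_le_left.trans hTy)).trans h2
      rw [le_core_iff (inf_le_left.trans hTy)] at h3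
      intro x hx
      apply h3
      rw [mem_inf] at hx
      refine mem_inf.mpr ⟨hx.1, ?_⟩
      rw [mem_centralizer_singleton_iff]
      exact congrArg Subtype.val (mem_centralizer_singleton_iff.mp hx.2)

/-- a `P`-invariant line structure in `A` -/
theorem exists_line (h : Hyp p P A) (E : Subgroup G) (hEA : E ≤ A) (hE : ∀ e ∈ E, e ^ p = 1)
    (hE2 : p < Nat.card E) : ∃ z ∈ A, ∃ y ∈ A, z ≠ 1 ∧ z ^ p = 1 ∧ (∀ x ∈ P, x * z = z * x) ∧
      y ^ p = 1 ∧ y ∉ zpowers z ∧ ∀ x ∈ P, x * y * x⁻¹ * y⁻¹ ∈ zpowers z := by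
  classical
  let W : Subgroup P :=
    { carrier := {a | (a : G) ∈ A ∧ (a : G) ^ p = 1}
      one_mem' := ⟨one_mem _, one_pow _⟩
      mul_mem' := by
        rintro a b ⟨ha, ha'⟩ ⟨hb, hb'⟩
        refine ⟨mul_mem ha hb, ?_⟩
        have hc : Commute (a : G) b := h.comm a ha b hb
        change ((a : G) * b) ^ p = 1
        rw [hc.mul_pow, ha', hb', one_mul]
      inv_mem' := by
        rintro a ⟨ha, ha'⟩
        refine ⟨inv_mem ha, ?_⟩
        change ((a : G)⁻¹) ^ p = 1
        rw [inv_pow, ha', inv_one] }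
  have hW : ∀ a : P, a ∈ W ↔ ((a : G) ∈ A ∧ (a : G) ^ p = 1) := fun a => Iff.rfl
  have hWn : W.Normal := by
    refine ⟨fun a ha g => ?_⟩
    rw [hW] at ha ⊢
    refine ⟨conj_mem_of_le_normalizer h.norm g.2 ha.1, ?_⟩
    change ((g : G) * a * (g : G)⁻¹) ^ p = 1
    rw [conj_pow, ha.2, mul_one, mul_inv_cancel]
  have hEW : Nat.card E ≤ Nat.card W := by
    let f : E → W := fun e => ⟨⟨e, h.le (hEA e.2)⟩, hEA e.2, hE e e.2⟩
    refine Nat.card_le_card_of_injective f ?_
    intro a b hab
    apply Subtype.ext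
    exact congrArg (fun w : W => ((w : P) : G)) hab
  have hWbot : W ≠ ⊥ := by
    intro h1
    rw [h1, Subgroup.card_bot] at hEW
    have := hp.out.one_lt
    omega
  obtain ⟨z, hzW, hzc, hzo⟩ := H76.PG.exists_center_of_normal P.2 W hWbot
  set Z := zpowers z with hZ
  have hZn : Z.Normal := by
    refine ⟨fun w hw g => ?_⟩
    have h1 : Z ≤ center P := by
      rw [hZ, zpowers_le]
      exact hzc
    rw [mem_center_iff.mp (h1 hw) g, mul_inv_cancel_right]
    exact hw
  have hWZ : W.map (QuotientGroup.mk' Z) ≠ ⊥ := by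
    intro h1
    rw [Subgroup.map_eq_bot_iff, QuotientGroup.ker_mk'] at h1
    have h2 := Subgroup.card_le_of_le h1
    rw [hZ, Nat.card_zpowers, hzo] at h2
    omega
  have hWZn : (W.map (QuotientGroup.mk' Z)).Normal := hWn.map _ (QuotientGroup.mk'_surjective Z)
  have hquot : IsPGroup p (P ⧸ Z) := P.2.to_quotient Z
  obtain ⟨y', hy', hyc, hyo⟩ := H76.PG.exists_center_of_normal hquot _ hWZ
  obtain ⟨y, hyW, rfl⟩ := hy'
  have hzp : (z : G) ^ p = 1 := ((hW z).mp hzW).2
  have hz1 : (z : G) ≠ 1 := by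
    intro h1
    have : z = 1 := Subtype.ext h1
    rw [this, orderOf_one] at hzo
    exact hp.out.one_lt.ne hzo
  have hcoe : ∀ w : P, (w : G) ∈ zpowers (z : G) → w ∈ Z := by
    rintro w ⟨j, hj⟩
    refine ⟨j, Subtype.ext ?_⟩
    exact hj
  have hcoe' : ∀ w : P, w ∈ Z → (w : G) ∈ zpowers (z : G) := by
    rintro _ ⟨j, rfl⟩
    exact ⟨j, rfl⟩
  refine ⟨z, ((hW z).mp hzW).1, y, ((hW y).mp hyW).1, hz1, hzp, ?_, ((hW y).mp hyW).2, ?_, ?_⟩
  · intro x hx
    exact congrArg Subtype.val (mem_center_iff.mp hzc ⟨x, hx⟩)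
  · intro h1
    have h2 := hcoe y h1
    have h3 : QuotientGroup.mk' Z y = 1 := (QuotientGroup.eq_one_iff y).mpr h2
    rw [h3, orderOf_one] at hyo
    exact hp.out.one_lt.ne hyo
  · intro x hx
    have h1 := mem_center_iff.mp hyc (QuotientGroup.mk' Z ⟨x, hx⟩)
    have h2 : QuotientGroup.mk' Z (⟨x, hx⟩ * y * ⟨x, hx⟩⁻¹ * y⁻¹) = 1 := by
      simp only [map_mul, map_inv]
      rw [h1]; group
    exact hcoe' _ ((QuotientGroup.eq_one_iff _).mp h2)

/-- the centralizer index bound -/
theorem card_le_of_commutator (h : Hyp p P A) {z y : G} (hz : z ∈ A) (hzp : z ^ p = 1)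
    (hzc : ∀ x ∈ P, x * z = z * x) (hy : y ∈ A) (hcy : ∀ x ∈ P, x * y * x⁻¹ * y⁻¹ ∈ zpowers z) :
    Nat.card P ≤ p * Nat.card ((P : Subgroup G) ⊓ centralizer {y} : Subgroup G) := by
  have hzc' : ∀ x ∈ P, ∀ w ∈ zpowers z, x * w = w * x := by
    rintro x hx _ ⟨j, rfl⟩
    have : Commute x z := hzc x hx
    exact (this.zpow_right j).eq
  let f : P →* zpowers z :=
    { toFun := fun x => ⟨x * y * x⁻¹ * y⁻¹, hcy x x.2⟩
      map_one' := by
        apply Subtype.ext
        simp
      map_mul' := by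
        intro a b
        apply Subtype.ext
        change ((a : G) * b) * y * ((a : G) * b)⁻¹ * y⁻¹ = (a * y * (a : G)⁻¹ * y⁻¹) * (b * y * (b : G)⁻¹ * y⁻¹)
        have h1 := hzc' a a.2 _ (hcy b b.2)
        have h2 : ((a : G) * b) * y * ((a : G) * b)⁻¹ * y⁻¹ =
            ((a : G) * (b * y * (b : G)⁻¹ * y⁻¹)) * (a : G)⁻¹ * (a * y * (a : G)⁻¹ * y⁻¹) := by group
        rw [h2, h1]
        have h3 := hcy a a.2
        have h4 := hcy b b.2
        obtain ⟨i, hi⟩ := h3
        obtain ⟨j, hj⟩ := h4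
        rw [mul_inv_cancel_right]
        change z ^ i = _ at hi
        change z ^ j = _ at hj
        rw [← hi, ← hj, ← zpow_add, ← zpow_add, add_comm] }
  have hker : f.ker = (centralizer {y}).subgroupOf (P : Subgroup G) := by
    ext x
    rw [MonoidHom.mem_ker, mem_subgroupOf, mem_centralizer_singleton_iff]
    constructor
    · intro h1
      have h2 : (x : G) * y * (x : G)⁻¹ * y⁻¹ = 1 := congrArg Subtype.val h1
      rwa [mul_inv_eq_one, mul_inv_eq_iff_eq_mul] at h2
    · intro h1
      apply Subtype.ext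
      change (x : G) * y * (x : G)⁻¹ * y⁻¹ = 1
      rw [h1]; group
  have h1 := Subgroup.card_mul_index f.ker
  have h2 : Nat.card f.ker = Nat.card ((P : Subgroup G) ⊓ centralizer {y} : Subgroup G) := by
    rw [hker, ← Subgroup.inf_subgroupOf_left]
    exact Nat.card_congr (Subgroup.subgroupOfEquivOfLe inf_le_left).toEquiv
  have h3 : f.ker.index ≤ p := by
    rw [Subgroup.index_ker]
    refine (Subgroup.card_le_card_group f.range).trans ?_
    rw [Nat.card_zpowers]
    exact Nat.le_of_dvd hp.out.pos (orderOf_dvd_of_pow_eq_one hzp)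
  rw [← h1, h2, mul_comm]
  exact Nat.mul_le_mul_right _ h3

/-- For `x ∈ A`, `x ≠ 1`: each `A`-invariant `p'`-subgroup of `C(x)` lies in `O_{p'}(C(x))`. -/
theorem le_core (h : Hyp p P A) (hp2 : p ≠ 2) (E : Subgroup G) (hEA : E ≤ A) (hE : ∀ e ∈ E, e ^ p = 1)
    (hE2 : p < Nat.card E) {x : G} (hx : x ∈ A) (hx1 : x ≠ 1) {T : Subgroup G} (hTx : T ≤ centralizer {x})
    (hT : (Nat.card T).Coprime p) (hAT : A ≤ normalizer (T : Set G)) :
    T ≤ core p (centralizer ({x} : Set G)) := by
  obtain ⟨z, hz, y, hy, hz1, hzp, hzc, hyp, hyz, hcy⟩ := exists_line h E hEA hE hE2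
  have key : ∀ w ∈ A, w ≠ 1 → (∀ g ∈ P, g * w * g⁻¹ * w⁻¹ ∈ zpowers z) →
      T ⊓ centralizer {w} ≤ core p (centralizer ({x} : Set G)) := by
    intro w hw hw1 hcw
    have h1 : T ⊓ centralizer {w} ≤ core p (centralizer ({w} : Set G)) := by
      refine le_core_of_index h hp2 hz hz1 hzc hw hw1 (card_le_of_commutator h hz hzp hzc hw hcw) inf_le_right
        (Nat.Coprime.coprime_dvd_left (Subgroup.card_dvd_of_le inf_le_left) hT) ?_
      refine H1.Coprime2.le_normalizer_inf hAT ?_
      exact (le_centralizer h hw).trans le_normalizer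
    exact (le_inf h1 (inf_le_left.trans hTx)).trans
      (core_inf_le (p := p) x w (h.comm x hx w hw) (isPGroup_zpowers h (h.le hw)) (isSolvable_centralizer h (h.le hx) hx1))
  have hpT : ¬ p ∣ Nat.card T := fun h1 => (Nat.Prime.coprime_iff_not_dvd hp.out).mp hT.symm h1
  refine H27.GenSub.le_of_lines p A T h.isPGroup hAT hpT z y hz hy (h.comm z hz y hy)
    (by rw [hzp]; exact one_mem _) (by rw [hyp]; exact one_mem _) _ ?_ ?_
  · refine key z hz hz1 ?_
    intro g hg
    rw [hzc g hg]
    have : z * g * g⁻¹ * z⁻¹ = 1 := by group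
    rw [this]
    exact one_mem _
  · intro i
    refine key (z ^ i * y) (mul_mem (pow_mem hz i) hy) ?_ ?_
    · intro h1
      apply hyz
      have h2 : y = (z ^ i)⁻¹ := (eq_inv_of_mul_eq_one_right h1)
      rw [h2]
      exact inv_mem (pow_mem (mem_zpowers z) i)
    · intro g hg
      have hgz : Commute g z := hzc g hg
      have h1 : g * (z ^ i * y) * g⁻¹ * (z ^ i * y)⁻¹ = (g * z ^ i * g⁻¹) * (g * y * g⁻¹ * y⁻¹) * (z ^ i)⁻¹ := by
        group
      rw [h1, (hgz.pow_right i).eq, mul_inv_cancel_right]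
      exact mul_mem (mul_mem (pow_mem (mem_zpowers z) i) (hcy g hg)) (inv_mem (pow_mem (mem_zpowers z) i))

end H11.Transitivity
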