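import Mathlib
import Cfsg.Prelude
import Cfsg.Agent.Lib.H11.Transitivity
import Cfsg.Agent.Lib.H28.RelSyl

/-!
Thompson's transitivity theorem for groups of odd order with solvable `p`-local subgroups.
-/

set_option autoImplicit false
set_option linter.unusedSectionVars false

namespace H11.Transitivity

open Subgroup Cfsg H1.Coprime H11.InvSub
open scoped commutatorElement Pointwise

universe u

variable {G : Type u} [Group G] [Finite G] {p : ℕ} [hp : Fact p.Prime] {P : Sylow p G} {A : Subgroup G}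

/-- maximal `A`-invariant `q`-subgroups -/
def IsMax (A : Subgroup G) (q : ℕ) (Q : Subgroup G) : Prop :=
  IsPGroup q Q ∧ A ≤ normalizer (Q : Set G) ∧
    ∀ R : Subgroup G, IsPGroup q R → A ≤ normalizer (R : Set G) → Q ≤ R → R = Q

theorem exists_isMax {q : ℕ} {A Q : Subgroup G} (hQ : IsPGroup q Q) (hAQ : A ≤ normalizer (Q : Set G)) :
    ∃ R, IsMax A q R ∧ Q ≤ R := by
  obtain ⟨R, ⟨h1, h2, h3⟩, hmax⟩ := (Set.toFinite {R : Subgroup G | IsPGroup q R ∧
    A ≤ normalizer (R : Set G) ∧ Q ≤ R}).exists_maximal ⟨Q, hQ, hAQ, le_rfl⟩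
  refine ⟨R, ⟨h1, h2, fun S hS hAS hRS => ?_⟩, h3⟩
  exact le_antisymm (hmax ⟨hS, hAS, h3.trans hRS⟩ hRS) hRS

theorem smul_inf' (g : G) (H K : Subgroup G) :
    MulAut.conj g • (H ⊓ K) = MulAut.conj g • H ⊓ MulAut.conj g • K := by
  ext x
  simp only [H1.SZ.mem_conj_smul, mem_inf]

theorem smul_le_iff' (g : G) (H K : Subgroup G) :
    MulAut.conj g • H ≤ MulAut.conj g • K ↔ H ≤ K := Subgroup.pointwise_smul_le_pointwise_smul_iff

theorem le_normalizer_smul {A Q : Subgroup G} (hAQ : A ≤ normalizer (Q : Set G)) {c : G}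
    (hc : c ∈ centralizer (A : Set G)) : A ≤ normalizer ((MulAut.conj c • Q : Subgroup G) : Set G) := by
  apply le_normalizer_of_conj_mem
  intro a ha x hx
  rw [H1.SZ.mem_conj_smul] at hx ⊢
  have h1 : a * c = c * a := mem_centralizer_iff.mp hc a ha
  have h2 : c⁻¹ * (a * x * a⁻¹) * c = a * (c⁻¹ * x * c) * a⁻¹ := by
    have h3 : c⁻¹ * a = a * c⁻¹ := by
      rw [inv_mul_eq_iff_eq_mul, ← mul_assoc, ← h1, mul_inv_cancel_right]
    have h4 : a⁻¹ * c = c * a⁻¹ := by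
      rw [inv_mul_eq_iff_eq_mul, ← mul_assoc, h1, mul_inv_cancel_right]
    calc c⁻¹ * (a * x * a⁻¹) * c = (c⁻¹ * a) * x * (a⁻¹ * c) := by group
      _ = (a * c⁻¹) * x * (c * a⁻¹) := by rw [h3, h4]
      _ = a * (c⁻¹ * x * c) * a⁻¹ := by group
  rw [h2]
  exact conj_mem_of_le_normalizer hAQ ha hx

theorem IsMax.smul {q : ℕ} {A Q : Subgroup G} (hQ : IsMax A q Q) {c : G} (hc : c ∈ centralizer (A : Set G)) :
    IsMax A q (MulAut.conj c • Q) := by
  refine ⟨hQ.1.map _, le_normalizer_smul hQ.2.1 hc, fun R hR hAR hle => ?_⟩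
  have h1 : MulAut.conj c⁻¹ • R = Q := by
    apply hQ.2.2
    · exact hR.map _
    · exact le_normalizer_smul hAR (inv_mem hc)
    · rw [← smul_le_iff' c, ← mul_smul, ← map_mul, mul_inv_cancel, map_one, one_smul]
      exact hle
  rw [← h1, ← mul_smul, ← map_mul, mul_inv_cancel, map_one, one_smul]

theorem exists_hyperplane_not_le {q : ℕ} [hq : Fact q.Prime] (hqp : q ≠ p) {E N D : Subgroup G}
    (hE : IsElementaryAbelian p E) (hEN : E ≤ normalizer (N : Set G)) (hN : IsPGroup q N) (hND : ¬ N ≤ D) :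
    ∃ B ≤ E, B.relIndex E ≤ p ∧ ¬ N ⊓ centralizer (B : Set G) ≤ D := by
  by_contra hcon
  push Not at hcon
  apply hND
  refine H27.GenSub.le_of_hyperplanes p E N D hE hEN ?_ hcon
  intro h1
  obtain ⟨n, hn⟩ := IsPGroup.iff_card.mp hN
  rw [hn] at h1
  exact hqp ((Nat.prime_dvd_prime_iff_eq hp.out hq.out).mp (hp.out.dvd_of_dvd_pow h1)).symm

theorem transitivity (h : Hyp p P A) (hp2 : p ≠ 2) (E : Subgroup G) (hEA : E ≤ A)
    (hE : ∀ e ∈ E, e ^ p = 1) (hE3 : p ^ 3 ≤ Nat.card E) {q : ℕ} [hq : Fact q.Prime] (hqp : q ≠ p) (n : ℕ) :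
    ∀ Q₁ Q₂ : Subgroup G, Nat.card G - Nat.card (Q₁ ⊓ Q₂ : Subgroup G) = n → IsMax A q Q₁ → IsMax A q Q₂ →
      ∃ c ∈ centralizer (A : Set G), Q₂ = MulAut.conj c • Q₁ := by
  induction n using Nat.strong_induction_on with
  | _ n ih =>
  intro Q₁ Q₂ hn h₁ h₂
  set D := Q₁ ⊓ Q₂ with hD
  by_cases hD1 : D = Q₁
  · have : Q₁ ≤ Q₂ := by rw [← hD1, hD]; exact inf_le_right
    refine ⟨1, one_mem _, ?_⟩
    rw [map_one, one_smul]
    exact h₁.2.2 Q₂ h₂.1 h₂.2.1 this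
  by_cases hD2 : D = Q₂
  · have : Q₂ ≤ Q₁ := by rw [← hD2, hD]; exact inf_le_left
    refine ⟨1, one_mem _, ?_⟩
    rw [map_one, one_smul]
    exact (h₂.2.2 Q₁ h₁.1 h₁.2.1 this).symm
  have hpc : p < Nat.card E := by
    refine lt_of_lt_of_le ?_ hE3
    calc p = p ^ 1 := (pow_one p).symm
      _ < p ^ 3 := Nat.pow_lt_pow_right hp.out.one_lt (by norm_num)
  have hEab : IsElementaryAbelian p E := by
    refine ⟨⟨⟨fun a b => ?_⟩⟩, hE⟩
    exact Subtype.ext (h.comm a (hEA a.2) b (hEA b.2))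
  have hDlt1 : D < Q₁ := lt_of_le_of_ne inf_le_left hD1
  have hDlt2 : D < Q₂ := lt_of_le_of_ne inf_le_right hD2
  have hAD : A ≤ normalizer (D : Set G) := H1.Coprime2.le_normalizer_inf h₁.2.1 h₂.2.1
  have hgrow : ∀ Q : Subgroup G, IsPGroup q Q → D < Q → D < Q ⊓ normalizer (D : Set G) := by
    intro Q hQ hlt
    exact H28.RelSyl.lt_inf_normalizer_of_isPGroup hQ hlt
  -- the two normalizers
  have hNn : ∀ Q : Subgroup G, A ≤ normalizer (Q : Set G) →
      A ≤ normalizer ((Q ⊓ normalizer (D : Set G) : Subgroup G) : Set G) := fun Q hQ =>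
    H1.Coprime2.le_normalizer_inf hQ (H1.Coprime2.le_normalizer_normalizer hAD)
  obtain ⟨B1, hB1E, hB1i, hB1⟩ := exists_hyperplane_not_le (p := p) hqp hEab (hEA.trans (hNn Q₁ h₁.2.1))
    (h₁.1.to_le inf_le_left) (hgrow Q₁ h₁.1 hDlt1).not_ge
  obtain ⟨B2, hB2E, hB2i, hB2⟩ := exists_hyperplane_not_le (p := p) hqp hEab (hEA.trans (hNn Q₂ h₂.2.1))
    (h₂.1.to_le inf_le_left) (hgrow Q₂ h₂.1 hDlt2).not_ge
  -- a common element
  obtain ⟨x, hxB, hx1⟩ : ∃ x ∈ B1 ⊓ B2, x ≠ 1 := by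
    by_contra hcon
    push Not at hcon
    have hbot : B1 ⊓ B2 = ⊥ := by
      rw [eq_bot_iff]
      intro x hx
      exact mem_bot.mpr (hcon x hx)
    have h1 : (B1 ⊓ B2).relIndex E ≤ B1.relIndex E * B2.relIndex E := Subgroup.relIndex_inf_le
    rw [hbot, Subgroup.relIndex_bot_left] at h1
    have h2 : Nat.card E ≤ p * p := h1.trans (Nat.mul_le_mul hB1i hB2i)
    have h3 : p ^ 3 ≤ p ^ 2 := by rw [pow_two]; exact hE3.trans h2
    have h4 := (Nat.pow_le_pow_iff_right hp.out.one_lt).mp h3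
    omega
  rw [mem_inf] at hxB
  have hxA : x ∈ A := hEA (hB1E hxB.1)
  set K := core p (centralizer ({x} : Set G)) ⊓ normalizer (D : Set G) with hK
  have hACx : A ≤ centralizer ({x} : Set G) := le_centralizer h hxA
  -- `T_i`
  have hT : ∀ Q : Subgroup G, IsMax A q Q →
      (Q ⊓ normalizer (D : Set G)) ⊓ centralizer ({x} : Set G) ≤ K ∧
      IsPGroup q ((Q ⊓ normalizer (D : Set G)) ⊓ centralizer ({x} : Set G) : Subgroup G) ∧
      A ≤ normalizer (((Q ⊓ normalizer (D : Set G)) ⊓ centralizer ({x} : Set G) : Subgroup G) : Set G) := by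
    intro Q hQ
    have hqg : IsPGroup q ((Q ⊓ normalizer (D : Set G)) ⊓ centralizer ({x} : Set G) : Subgroup G) :=
      hQ.1.to_le (inf_le_left.trans inf_le_left)
    have hAn : A ≤ normalizer (((Q ⊓ normalizer (D : Set G)) ⊓ centralizer ({x} : Set G) : Subgroup G) : Set G) :=
      H1.Coprime2.le_normalizer_inf (hNn Q hQ.2.1) (hACx.trans le_normalizer)
    refine ⟨le_inf ?_ (inf_le_left.trans inf_le_right), hqg, hAn⟩
    refine le_core h hp2 E hEA hE hpc hxA hx1 inf_le_right ?_ hAn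
    obtain ⟨m, hm⟩ := IsPGroup.iff_card.mp hqg
    rw [hm]
    exact Nat.Coprime.pow_left _ ((Nat.coprime_primes hq.out hp.out).mpr hqp)
  have hAK : A ≤ normalizer (K : Set G) :=
    H1.Coprime2.le_normalizer_inf (hACx.trans (le_normalizer_core p _)) (H1.Coprime2.le_normalizer_normalizer hAD)
  have hKc : (Nat.card K).Coprime p :=
    Nat.Coprime.coprime_dvd_left (Subgroup.card_dvd_of_le inf_le_left) (card_core p _)
  have hcop : (Nat.card A).Coprime (Nat.card K) := (coprime_of_pgroup h.isPGroup hKc).symm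
  have hAs : Group.IsSolvable A ∨ Group.IsSolvable K := Or.inl (solvable_of_pgroup h.isPGroup)
  obtain ⟨hT1K, hT1q, hT1n⟩ := hT Q₁ h₁
  obtain ⟨hT2K, hT2q, hT2n⟩ := hT Q₂ h₂
  set T1 := (Q₁ ⊓ normalizer (D : Set G)) ⊓ centralizer ({x} : Set G) with hT1
  set T2 := (Q₂ ⊓ normalizer (D : Set G)) ⊓ centralizer ({x} : Set G) with hT2
  have hcx : ∀ B : Subgroup G, x ∈ B → centralizer (B : Set G) ≤ centralizer ({x} : Set G) := by
    intro B hxB
    apply Subgroup.centralizer_le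
    rw [Set.singleton_subset_iff]
    exact hxB
  have hT1D : ¬ T1 ≤ D := fun h1 => hB1 ((inf_le_inf_left _ (hcx B1 hxB.1)).trans h1)
  have hT2D : ¬ T2 ≤ D := fun h1 => hB2 ((inf_le_inf_left _ (hcx B2 hxB.2)).trans h1)
  obtain ⟨S1, hS1, hTS1, hAS1⟩ := H1.Coprime2.exists_invariant_sylow_ge A K hAK hcop hAs q T1 hT1K hT1q hT1n
  obtain ⟨S2, hS2, hTS2, hAS2⟩ := H1.Coprime2.exists_invariant_sylow_ge A K hAK hcop hAs q T2 hT2K hT2q hT2n
  obtain ⟨c, hc, hcS⟩ := H1.Coprime2.conj_invariant_sylow A K hAK hcop hAs q S2 S1 hS2 hS1 hAS2 hAS1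
  rw [mem_inf] at hc
  have hcD : c ∈ normalizer (D : Set G) := (mem_inf.mp hc.1).2
  -- the group `D ⊔ S1`
  have hS1D : S1 ≤ normalizer (D : Set G) := hS1.1.trans inf_le_right
  have hUq : IsPGroup q (S1 ⊔ D : Subgroup G) :=
    IsPGroup.to_sup_of_normal_right' hS1.isPGroup (h₁.1.to_le inf_le_left) hS1D
  have hUA : A ≤ normalizer ((S1 ⊔ D : Subgroup G) : Set G) := H1.Coprime2.le_normalizer_sup hAS1 hAD
  obtain ⟨Q₃, h₃, hUQ⟩ := exists_isMax hUq hUA
  have hstep : ∀ R : Subgroup G, IsMax A q R → D ≤ R → ∀ T : Subgroup G, T ≤ R → T ≤ Q₃ → ¬ T ≤ D →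
      ∃ c ∈ centralizer (A : Set G), Q₃ = MulAut.conj c • R := by
    intro R hR hDR T hTR hTQ hTD
    have hDlt : D < R ⊓ Q₃ := by
      refine lt_of_le_of_ne (le_inf hDR (le_sup_right.trans hUQ)) ?_
      intro h1
      apply hTD
      rw [h1]
      exact le_inf hTR hTQ
    have hclt : Nat.card D < Nat.card (R ⊓ Q₃ : Subgroup G) := by
      apply lt_of_le_of_ne (Subgroup.card_le_of_le hDlt.le)
      intro h1
      exact hDlt.ne (Subgroup.eq_of_le_of_card_ge hDlt.le h1.ge)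
    have hle : Nat.card (R ⊓ Q₃ : Subgroup G) ≤ Nat.card G := Subgroup.card_le_card_group _
    exact ih (Nat.card G - Nat.card (R ⊓ Q₃ : Subgroup G)) (by omega) R Q₃ rfl hR h₃
  obtain ⟨c1, hc1, hQ31⟩ := hstep Q₁ h₁ inf_le_left T1 (inf_le_left.trans inf_le_left)
    (hTS1.trans (le_sup_left.trans hUQ)) hT1D
  have hcDD : MulAut.conj c • D = D := H1.SZ.conj_smul_eq_of_mem_normalizer hcD
  obtain ⟨c2, hc2, hQ32⟩ := hstep (MulAut.conj c • Q₂) (h₂.smul hc.2) (by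
      rw [← hcDD, smul_le_iff']; exact inf_le_right) (MulAut.conj c • T2) (by
      rw [smul_le_iff']; exact inf_le_left.trans inf_le_left) (by
      refine le_trans ?_ (le_sup_left.trans hUQ)
      rw [← hcS, smul_le_iff']; exact hTS2) (by
      rw [← hcDD, smul_le_iff']; exact hT2D)
  refine ⟨(c2 * c)⁻¹ * c1, mul_mem (inv_mem (mul_mem hc2 hc.2)) hc1, ?_⟩
  rw [map_mul, mul_smul, ← hQ31, hQ32, ← mul_smul, ← map_mul, ← mul_smul, ← map_mul]
  have h1 : (c2 * c)⁻¹ * c2 * c = 1 := by group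
  rw [h1, map_one, one_smul]

end H11.Transitivity
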